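import Cfsg.Agent.Co1T.D3
import Cfsg.Agent.Co1T.CV
import Cfsg.Agent.J4T.C5
import Cfsg.Agent.Co1T.CT

/-! Step C of the recognition of `Co1` (helper23). -/

set_option autoImplicit false

namespace Cfsg.Agent.Co1T

open Subgroup Cfsg.Agent.Comp Cfsg.Agent.Leech Cfsg.Agent.Golay Cfsg.Agent.Mon
open scoped Pointwise

noncomputable def D.B0 : Subgroup NN := H0.comap (mk1.comp NN.subtype)

noncomputable def D.ιB : D.B0 →* H0 := ((mk1.comp NN.subtype).comp D.B0.subtype).codRestrict _ fun b => b.2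

theorem D.mem_B0 {b : NN} : b ∈ D.B0 ↔ prM b • oct0 = oct0 := by
  refine ⟨fun h => ?_, fun h => ?_⟩
  · obtain ⟨c, hc, σ, h1, h2⟩ := mem_NH.1 ⟨⟨b, b.2, rfl⟩, h⟩
    have h3 : b.1 * (pm σ)⁻¹ ∈ SG := mk1_mem_V0.1 (by
      rw [map_mul, map_inv]; exact (mul_inv_eq_of_eq_mul h2).symm ▸ eps_mem hc)
    have h4 := (prM_eq_one (g := b * (⟨pm σ, pm_mem σ⟩ : NN)⁻¹)).2 h3
    rw [map_mul, map_inv, prM_pm, mul_inv_eq_one] at h4
    rwa [h4]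
  · obtain ⟨_, σ, c, hc, rfl⟩ := b
    rw [prM_eq (hc := hc) rfl] at h
    exact (mem_NH.2 ⟨c, hc, σ, h, (congrArg mk1 (sg_mul_pm σ hc).symm).trans (mk1.map_mul _ _)⟩).2

theorem D.index_B0 : Odd D.B0.index := by
  rw [show D.B0 = (MulAction.stabilizer Golay.MG oct0).comap prM from Subgroup.ext fun _ => D.mem_B0,
    index_comap_of_surjective _ prM_surj]
  have := (MulAction.stabilizer Golay.MG oct0).card_mul_index
  rw [card_Oct, card_M24] at this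
  rw [show (MulAction.stabilizer Golay.MG oct0).index = 759 by omega]
  decide

open D in
theorem stepC {G : Type*} [Group G] [Finite G] (φ : H0 →* G) (hφ : Function.Injective φ)
    (hC : centralizer {φ ⟨z0, z0_mem⟩} = φ.range)
    (hN1 : ∀ n ∈ normalizer (((V0.subgroupOf H0).map φ : Subgroup G) : Set G), ∃ k ∈ N0, ∀ v w : H0,
      (v : CC) ∈ V0 → (w : CC) = k * v * k⁻¹ → n * φ v * n⁻¹ = φ w)
    (hN2 : ∀ k ∈ N0, ∃ n : G, ∀ v w : H0, (v : CC) ∈ V0 → (w : CC) = k * v * k⁻¹ → n * φ v * n⁻¹ = φ w) :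
    ∃ j : CC →* G, φ.range ≤ j.range ∧ normalizer (((V0.subgroupOf H0).map φ : Subgroup G) : Set G) ≤ j.range ∧
      (∀ v : H0, (v : CC) ∈ V0 → j v = φ v) ∧ j z0 = φ ⟨z0, z0_mem⟩ ∧ V0.map j = (V0.subgroupOf H0).map φ := by
  have hc0 : ∀ n : G, (∀ v : H0, v.1 ∈ V0 → n * φ v = φ v * n) → ∃ v : H0, v.1 ∈ V0 ∧ n = φ v := fun n hn => by
    obtain ⟨x, rfl⟩ : n ∈ φ.range := hC ▸ mem_centralizer_singleton_iff.2 (hn _ z0_V)
    refine ⟨x, cent_V0 ▸ mem_centralizer_iff.2 fun v hv => ?_, rfl⟩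
    have := hn ⟨v, V0_le_H0 hv⟩ hv
    rw [← map_mul, ← map_mul] at this
    exact (congrArg Subtype.val (hφ this)).symm
  have hVB : prM.ker ≤ B0 := fun v hv => SG_H0 (prM_eq_one.1 hv)
  have mV : ∀ {v : NN}, v ∈ prM.ker → mk1 v ∈ V0 := fun hv => mk1_mem_V0.2 (prM_eq_one.1 hv)
  let pr : NN →* NN := (pm.codRestrict NN pm_mem).comp prM
  obtain ⟨ψ, s1, s2⟩ := J4T.C.exists_ext hVB (φ.comp ιB)
    (fun v hv => Subtype.ext (by obtain ⟨c, hc, e⟩ := prM_eq_one.1 hv; rw [Subgroup.coe_mul, e]; exact sg_sq hc))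
    index_B0 (fun n hn => by
      obtain ⟨⟨_, h1⟩, ⟨v, hv, rfl⟩, rfl⟩ := hc0 n (by
        rintro ⟨_, h1⟩ ⟨v, hv, rfl⟩
        exact hn ⟨⟨v, SG_le hv⟩, h1⟩ (prM_eq_one.2 hv))
      exact ⟨⟨⟨v, SG_le hv⟩, h1⟩, prM_eq_one.2 hv, rfl⟩)
    (fun k => let ⟨n, hn⟩ := hN2 (mk1 k) ⟨k, k.2, rfl⟩; ⟨n, fun v w hv e => hn (ιB v) (ιB w) (mV hv) (by
      show mk1 w = mk1 k * mk1 v * (mk1 k)⁻¹
      rw [e, Subgroup.coe_mul, Subgroup.coe_mul, map_mul, map_mul, Subgroup.coe_inv, map_inv])⟩)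
    pr (fun k => by
      rw [MonoidHom.mem_ker, map_mul, map_inv]; exact mul_inv_eq_one.2 (prM_pm _).symm)
    fun v hv => by rw [MonoidHom.comp_apply, MonoidHom.mem_ker.1 hv, map_one]
  have gm : ∀ x, (⟨pm (gO x), pm_mem _⟩ : NN) ∈ B0 := fun x => mem_B0.2 (by
    rw [prM_pm]
    refine smul_mask (gO_rep x) ?_
    rw [cO, Spor.Dce.iteB_eq]; split_ifs <;> decide +kernel)
  choose u u1 u2 using fun x => s2 ⟨_, gm x⟩
  obtain ⟨_, ⟨t, ht, rfl⟩, t1⟩ := classify (α := fun x => (ιB (u x * ⟨_, gm x⟩)).1)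
    (fun x => by
      rw [map_mul, Subgroup.coe_mul]; exact (congrArg (· ∈ V0) (mul_inv_cancel_right _ _)).mpr (mV (u1 x))) fun w hw => by
      have : φ (ιB (Spor.ev (fun x => u x * ⟨_, gm x⟩) w)) = φ 1 := by
        rw [← MonoidHom.comp_apply, Spor.map_ev, ← funext u2, map_one]
        exact (Spor.map_ev (ψ.comp (pm.codRestrict NN pm_mem)) gO w).symm.trans (by rw [hw, map_one])
      exact (Spor.map_ev (H0.subtype.comp ιB) _ w).symm.trans (congrArg Subtype.val (hφ this))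
  let t' : B0 := ⟨⟨t, SG_le ht⟩, SG_H0 ht⟩
  have ht' : t'.1 ∈ prM.ker := prM_eq_one.2 ht
  let ψ' : NN →* G := ψ.comp (MulAut.conj t'.1⁻¹).toMonoidHom
  have p1 : ∀ b : B0, ψ' b = φ (ιB t'⁻¹) * ψ b * φ (ιB t') := fun b => by
    show ψ (t'.1⁻¹ * b * t'.1⁻¹⁻¹) = _
    rw [inv_inv, map_mul, map_mul, s1 t' ht']
    exact congrArg (· * _ * _) (s1 t'⁻¹ (inv_mem ht'))
  have hV : ∀ v : B0, v.1 ∈ prM.ker → ψ' v = φ (ιB v) := fun v hv => by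
    rw [p1, s1 v hv, MonoidHom.comp_apply, ← map_mul, ← map_mul]
    refine congrArg φ (Subtype.ext ?_)
    show mk1 t⁻¹ * mk1 v * mk1 t = mk1 v
    rw [mul_assoc, V0_comm (mV hv) (mV ht'), map_inv]; exact inv_mul_cancel_left _ _
  have h : ∀ (b : NN) (hb : mk1 b ∈ H0), φ ⟨mk1 b, hb⟩ = ψ' b := fun b hb => by
    let S := ((φ.comp ιB).eqLocus (ψ'.comp B0.subtype)).map B0.subtype
    have h1 : MulAction.stabilizer Golay.MG oct0 ≤ S.comap (pm.codRestrict NN pm_mem) := by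
      rw [← closure_Oct, closure_le]
      rintro σ ⟨c, hc, hσ⟩
      obtain ⟨x, hx, rfl⟩ : ∃ x < 2, cO x = c := by clear hσ; revert c; decide +kernel
      obtain rfl := (gO_rep x).unique hσ
      refine ⟨⟨_, gm x⟩, ?_, rfl⟩
      show φ _ = ψ' (⟨_, gm x⟩ : B0)
      rw [p1, u2, MonoidHom.comp_apply, ← map_mul, ← map_mul]
      exact congrArg φ (Subtype.ext (t1 x hx).symm)
    have h2 : b * (pr b)⁻¹ ∈ prM.ker := by
      rw [MonoidHom.mem_ker, map_mul, map_inv]; exact mul_inv_eq_one.2 (prM_pm _).symm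
    obtain ⟨_, h3, rfl⟩ : b ∈ S := by
      rw [← inv_mul_cancel_right b (pr b)]
      exact S.mul_mem ⟨⟨_, hVB h2⟩, (hV _ h2).symm, rfl⟩ (h1 (mem_B0.1 hb))
    exact h3
  obtain ⟨j, j1, j2⟩ := lift ψ' φ h (rigid hφ hC h cent_t0)
  have j3 : ∀ x : H0, j x = φ x := fun x => by
    have h1 : H0 ≤ ((j.comp H0.subtype).eqLocus φ).map H0.subtype := H0_eq.le.trans ((closure_le _).2 (by
      rintro _ (⟨⟨b, hb, rfl⟩, h2⟩ | rfl)
      exacts [⟨⟨_, h2⟩, (j1 ⟨b, hb⟩).trans (h ⟨b, hb⟩ h2).symm, rfl⟩, ⟨⟨T, T_mem⟩, j2, rfl⟩]))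
    obtain ⟨_, h, e⟩ := h1 x.2
    exact Subtype.ext e ▸ h
  refine ⟨j, ?_, fun n hn => ?_, fun v _ => j3 v, j3 ⟨z0, z0_mem⟩, le_antisymm ?_ ?_⟩
  · rintro _ ⟨x, rfl⟩
    exact ⟨x, j3 x⟩
  · obtain ⟨k, hk, h1⟩ := hN1 n hn
    obtain ⟨v, -, e⟩ := hc0 ((j k)⁻¹ * n) fun v hv => by
      have h2 := h1 v ⟨_, V0_le_H0 (V0_conj hk hv)⟩ hv rfl
      rw [← j3 ⟨_, V0_le_H0 (V0_conj hk hv)⟩, map_mul, map_mul, map_inv, j3] at h2
      calc _ = (j k)⁻¹ * (n * φ v * n⁻¹) * n := by group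
        _ = _ := by rw [h2]; group
    exact ⟨k * v, by rw [map_mul, j3, ← e]; group⟩
  · rintro _ ⟨v, hv, rfl⟩
    exact ⟨⟨v, V0_le_H0 hv⟩, hv, (j3 _).symm⟩
  · rintro _ ⟨v, hv, rfl⟩
    exact ⟨v, hv, j3 v⟩

end Cfsg.Agent.Co1T
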