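import Cfsg.Agent.Co1T.C0
import Cfsg.Agent.Spor.Co1N

/-! The monomial group `2^12:M24` on 48 points: letters and tables (helper23). -/

set_option autoImplicit false
set_option maxRecDepth 100000
set_option exponentiation.threshold 100000

namespace Cfsg.Agent.Co1T.D

open Equiv Subgroup Cfsg.Agent.Spor Cfsg.Agent.Leech Cfsg.Agent.Golay Cfsg.Agent.Mon
open scoped Pointwise

section
variable {K X : Type*} [Group K] [MulAction K X]

theorem exists_perm (pt : ℕ → X) (N : ℕ) (inj : ∀ i < N, ∀ j < N, pt i = pt j → i = j)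
    (cl : ∀ k : K, ∀ i < N, ∃ j < N, k • pt i = pt j) :
    ∃ φ : K →* Perm ℕ, (∀ k, ∀ i < N, φ k i < N ∧ k • pt i = pt (φ k i)) ∧ ∀ k i, N ≤ i → φ k i = i := by
  choose! f f1 f2 using cl
  let F : K →* Function.End ℕ :=
    { toFun := fun k i => if i < N then f k i else i
      map_one' := funext fun i => by
        show (if i < N then f 1 i else i) = i
        split_ifs with h
        · exact inj _ (f1 _ _ h) _ h (by rw [← f2 _ _ h, one_smul])
        · rfl
      map_mul' := fun a b => funext fun i => by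
        show (if i < N then f (a * b) i else i) =
          if (if i < N then f b i else i) < N then f a (if i < N then f b i else i) else (if i < N then f b i else i)
        by_cases h : i < N
        · rw [if_pos h, if_pos h, if_pos (f1 _ _ h)]
          exact inj _ (f1 _ _ h) _ (f1 _ _ (f1 _ _ h)) (by rw [← f2 _ _ h, ← f2 _ _ (f1 _ _ h), ← f2 _ _ h, mul_smul])
        · rw [if_neg h, if_neg h, if_neg h] }
  refine ⟨F.toHomPerm, fun k i h => ?_, fun k i h => if_neg (not_lt.2 h)⟩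
  have : F.toHomPerm k i = f k i := if_pos h
  rw [this]
  exact ⟨f1 _ _ h, f2 _ _ h⟩

theorem permRep_of_pts {y : ℕ → K} {nets : List Net} {N nl : ℕ} (ok : netsOk N nets = true)
    (top : genL y (List.range nl) = ⊤) (pt : ℕ → X) (inj : ∀ i < N, ∀ j < N, pt i = pt j → i = j)
    (h : ∀ x < nl, ∀ j < N, y x • pt ((PP nets x)⁻¹ j) = pt j) :
    ∃ ψ, PermRep y nets N nl ψ ∧ ∀ k, ∀ i < N, k • pt i = pt (ψ k i) := by
  have h1 : ∀ x < nl, ∀ i < N, y x • pt i = pt (PP nets x i) := fun x hx i hi => by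
    simpa using h x hx _ (PP_lt ok x hi)
  let S : Subgroup K :=
    { carrier := {k | ∀ i < N, (∃ j < N, k • pt i = pt j) ∧ ∃ j < N, k⁻¹ • pt i = pt j}
      mul_mem' := fun {a b} ha hb i hi => by
        obtain ⟨j, hj, e⟩ := (hb i hi).1
        obtain ⟨j', hj', e'⟩ := (ha i hi).2
        exact ⟨by rw [mul_smul, e]; exact (ha j hj).1, by rw [mul_inv_rev, mul_smul, e']; exact (hb j' hj').2⟩
      one_mem' := fun i hi => by simpa using ⟨i, hi, rfl⟩
      inv_mem' := fun ha i hi => by rw [inv_inv]; exact (ha i hi).symm }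
  have hS : ⊤ ≤ S := top ▸ genL_le fun x hx i hi => ⟨⟨_, PP_lt ok x hi, h1 x (List.mem_range.1 hx) i hi⟩,
    _, perm_lt_of_fix (σ := (PP nets x)⁻¹) (fun i hi => by rw [Perm.inv_eq_iff_eq, PP_of_le ok x hi]) hi,
    inv_smul_eq_iff.2 (h x (List.mem_range.1 hx) i hi).symm⟩
  obtain ⟨ψ, p1, p2⟩ := exists_perm pt N inj fun k i hi => (hS (mem_top k) i hi).1
  refine ⟨ψ, ⟨ok, fun x hx => Perm.ext fun i => ?_, top⟩, fun k i hi => (p1 k i hi).2⟩
  rcases lt_or_ge i N with hi | hi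
  · exact inj _ (p1 _ i hi).1 _ (PP_lt ok x hi) ((p1 _ i hi).2.symm.trans (h1 x hx i hi))
  · rw [p2 _ _ hi, PP_of_le ok x hi]

end

theorem inv_PP {nets : List Net} {N L : ℕ} (ok : netsOk N nets = true) (hN : N ≤ 2 ^ L) (hL : 0 < L) (x : ℕ) {j : ℕ}
    (hj : j < N) : Known.get2 L (Known.tabW nets N L L [x]) j = (PP nets x)⁻¹ j := by
  rw [Known.get2_eq, Known.get_tabW ok hN le_rfl hL (Nat.sub_add_cancel (Nat.two_pow_pos L)) _ hj, ev_one]

theorem gE_mem (a : ℕ) : EG.ofMask (gE a) ∈ GSupp := (ofMask_mem_supports_iff (gE_lt a)).2 (isG_gE a)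

noncomputable def mel (c : ℕ) : MG := if h : inM24 c = true then elt c h else 1

theorem mel_rep {c : ℕ} (h : inM24 c = true) : RM c (mel c) := by rw [mel, dif_pos h]; exact elt_rep c h

noncomputable def ls (x : ℕ) : ℕ := gE (getL Co1N.Ls 0 x)

noncomputable def lp (x : ℕ) : ℕ := getL Co1N.Lp one24 x

theorem lp_in (x : ℕ) : inM24 (lp x) = true :=
  getL_prop (p := fun c => inM24 c = true) _ _ x (by decide +kernel) (allL_spec (by decide +kernel))

/-- The letters. -/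
noncomputable def yK (x : ℕ) : NN := ⟨mono (mel (lp x)) _ (gE_mem (getL Co1N.Ls 0 x)), mono_mem _ _⟩

theorem yK_RC (x : ℕ) : RC (moC (ls x, lp x)) (yK x).1 := by
  have := grpC.mul (RC_sgC (gE_mem (getL Co1N.Ls 0 x))) (RC_pmC (mel_rep (lp_in x)))
  rwa [sg_mul_pm] at this

def p48 (i : ℕ) : LL := if i < 24 then e8 (EG.dec i) else -e8 (EG.dec (i - 24))

theorem p48_inj : ∀ i < 48, ∀ j < 48, p48 i = p48 j → i = j := fun i hi j hj e => by
  unfold p48 at e
  split_ifs at e with h1 h2 h2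
  · exact EG.dec_inj h1 h2 (e8_inj e)
  · exact absurd e (e8_ne_neg _ _)
  · exact absurd e.symm (e8_ne_neg _ _)
  · have := EG.dec_inj (by omega) (by omega) (e8_inj (neg_injective e)); omega

def F48 (s c p : ℕ) : ℕ :=
  Comp.get 5 31 c (p % 24) + if (decide (p < 24) = s.testBit (Comp.get 5 31 c (p % 24))) then 24 else 0

theorem F48_spec {s c : ℕ} {σ : MG} (h : RM c σ) (hs : EG.ofMask s ∈ GSupp) {p : ℕ} (hp : p < 48) :
    F48 s c p < 48 ∧ mono σ _ hs • p48 p = p48 (F48 s c p) := by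
  have h1 : p % 24 < 24 := Nat.mod_lt _ (by decide)
  have h2 := h.get_lt h1
  have h3 := h.smul_dec h1
  have h4 := mono_e8 σ hs (EG.dec (p % 24))
  simp only [h3, EG.dec_mem_ofMask h2] at h4
  unfold F48
  generalize Comp.get 5 31 c (p % 24) = q at *
  refine ⟨by split_ifs <;> omega, ?_⟩
  by_cases h5 : p < 24
  · rw [Nat.mod_eq_of_lt h5] at h4
    rw [p48, if_pos h5, h4]
    cases s.testBit q <;> simp [p48, h5, h2]
  · rw [show p % 24 = p - 24 by omega] at h4
    rw [p48, if_neg h5, smul_neg, h4]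
    cases s.testBit q <;> simp [p48, h5, h2]

noncomputable def actK (x p : ℕ) : ℕ :=
  iteB (Nat.blt x 27) (Nat.land (Nat.shiftRight Co1N.BIG (Nat.mul 6 (Nat.add (Nat.mul 48 x) p))) 63) p

theorem actK_spec (x : ℕ) {p : ℕ} (hp : p < 48) : actK x p < 48 ∧ yK x • p48 p = p48 (actK x p) := by
  have : actK x p = F48 (ls x) (lp x) p := by
    rcases lt_or_ge x 27 with h | h
    · revert x p
      have : allN 27 (fun x => allN 48 fun p => Nat.beq (actK x p) (F48 (ls x) (lp x) p)) = true := by decide +kernel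
      exact fun x p hp hx => Nat.eq_of_beq_eq_true (allN_spec (allN_spec this x hx) p hp)
    · rw [actK, Dce.iteB_eq, if_neg (by rw [Nat.blt_eq]; omega), ls, lp, getL_of_le _ _ _ h, getL_of_le _ _ _ h]
      clear h; revert p; decide +kernel
  rw [this]
  exact F48_spec (mel_rep (lp_in x)) (gE_mem _) hp

theorem yK_pm {x c : ℕ} {σ : MG} (h : RM c σ) (e : andB (Nat.beq (ls x) 0) (Nat.beq (lp x) c) = true) :
    (yK x).1 = pm σ := by
  rw [andB_eq_true] at e
  refine mono_congr (hc := gE_mem _) ((mel_rep (lp_in x)).unique (Nat.eq_of_beq_eq_true e.2 ▸ h)) ?_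
  rw [show gE (getL Co1N.Ls 0 x) = 0 from Nat.eq_of_beq_eq_true e.1, EG.ofMask_zero]

theorem yK_sg {x s : ℕ} (h : EG.ofMask s ∈ GSupp) (e : andB (Nat.beq (ls x) s) (Nat.beq (lp x) one24) = true) :
    (yK x).1 = sg _ h := by
  rw [andB_eq_true] at e
  refine mono_congr (hc := gE_mem _) ((mel_rep (lp_in x)).unique (Nat.eq_of_beq_eq_true e.2 ▸ grpM.one)) ?_
  rw [show gE (getL Co1N.Ls 0 x) = s from Nat.eq_of_beq_eq_true e.1]

theorem yK5 : (yK 5).1 = sg oct0 oct0_mem.1 := yK_sg _ (by decide +kernel)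

theorem top : genL yK (List.range 27) = ⊤ := by
  let S := (genL yK (List.range 27)).map NN.subtype
  have h0 : ∀ x < 27, (yK x).1 ∈ S := fun x hx => ⟨_, mem_genL _ (List.mem_range.2 hx), rfl⟩
  have h1 : ∀ σ, pm σ ∈ S := fun σ => by
    have : ⊤ ≤ S.comap pm := closure3 ▸ (closure_le _).2 (by
      rintro τ ⟨c, hc, h⟩
      simp only [List.mem_cons, List.not_mem_nil, or_false] at hc
      show pm τ ∈ S
      rcases hc with rfl | rfl | rfl
      · exact yK_pm (x := 0) h (by decide +kernel) ▸ h0 0 (by decide)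
      · exact yK_pm (x := 2) h (by decide +kernel) ▸ h0 2 (by decide)
      · exact yK_pm (x := 3) h (by decide +kernel) ▸ h0 3 (by decide))
    exact this (mem_top σ)
  have hF : InvFam {c | ∃ hc, sg c hc ∈ S} :=
    ⟨⟨empty_mem_supp, (mono_one ▸ S.one_mem : mono 1 ∅ empty_mem_supp ∈ S)⟩,
      fun ⟨hc, a⟩ ⟨hd, b⟩ => ⟨_, sg_mul hc hd ▸ S.mul_mem a b⟩,
      fun σ _ ⟨hc, a⟩ => ⟨_, sg_conj σ hc ▸ S.mul_mem (S.mul_mem (h1 σ) a) (S.inv_mem (h1 σ))⟩⟩
  have h2 := hF.supp_mem ⟨oct0_mem.1, yK5 ▸ h0 5 (by decide)⟩ oct0_mem.1 (by decide +kernel) (by decide +kernel)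
  refine eq_top_iff.2 fun ⟨k, σ, c, hc, e⟩ _ => ?_
  obtain ⟨k', h3, h4⟩ : k ∈ S := by rw [e, ← sg_mul_pm]; exact S.mul_mem (h2 hc).2 (h1 σ)
  exact (Subtype.ext h4 : k' = ⟨k, _⟩) ▸ h3

theorem exφ : ∃ φ, PermRep yK Co1N.anets 48 27 φ ∧ ∀ k : NN, ∀ i < 48, k • p48 i = p48 (φ k i) := by
  refine permRep_of_pts Co1N.aok top p48 p48_inj fun x hx j hj => ?_
  have : allN 27 (fun x => allN 48 fun j => seqL (Known.get2 6 (Known.tabW Co1N.anets 48 6 6 [x]) j) fun i =>
    andB (Nat.blt i 48) (Nat.beq (actK x i) j)) = true := by decide +kernel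
  have h := allN_spec (allN_spec this x hx) j hj
  rw [seqL_eq, andB_eq_true, inv_PP Co1N.aok (by decide) (by decide) x hj] at h
  rw [(actK_spec x (Dce.blt_spec h.1)).2, Nat.eq_of_beq_eq_true h.2]

noncomputable def φ : NN →* Perm ℕ := exφ.choose

theorem rφ : PermRep yK Co1N.anets 48 27 φ := exφ.choose_spec.1

theorem φ_spec (k : NN) {i : ℕ} (hi : i < 48) : k • p48 i = p48 (φ k i) := exφ.choose_spec.2 k i hi

theorem empty_of_low {c : Finset GolayPt} (hc : c ∈ GSupp) (h : ∀ i < 12, EG.dec i ∉ c) : c = ∅ := by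
  obtain ⟨s, hs, rfl⟩ := EG.exists_mask c
  rw [isG_ext ((ofMask_mem_supports_iff hs).1 hc) isG_zero (Nat.eq_of_testBit_eq fun i => ?_), EG.ofMask_zero]
  rw [Nat.zero_and, Nat.testBit_and, show 4095 = 2 ^ 12 - 1 from rfl, Nat.testBit_two_pow_sub_one, Nat.zero_testBit]
  by_cases hi : i < 12
  · have := h i hi
    rw [EG.dec_mem_ofMask (by omega)] at this
    simp [this]
  · simp [hi]

theorem eq_one_of_rows {σ : MG} (h : ∀ r ∈ rows, σ • EG.ofMask r = EG.ofMask r) : σ = 1 := by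
  have key : ∀ i j : GolayPt, (∀ r ∈ rows, i ∈ EG.ofMask r ↔ j ∈ EG.ofMask r) → i = j := by decide +kernel
  exact Subtype.ext (Equiv.ext fun i => key _ _ fun r hr => by
    conv_lhs => rw [← h r hr]
    exact Finset.smul_mem_smul_finset_iff σ)

theorem paK : PtAct φ 48 [0, 1, 2, 3, 4, 5, 6, 7, 8, 9, 10, 11] yK actK := by
  refine ⟨fun a _ h => rφ.lt a h, fun x i hi => p48_inj _ (rφ.lt _ hi) _ (actK_spec x hi).1
    ((φ_spec _ hi).symm.trans (actK_spec x hi).2), fun ⟨_, σ, c, hc, rfl⟩ h => Subtype.ext ?_⟩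
  have h1 : ∀ i < 12, σ • EG.dec i = EG.dec i ∧ EG.dec i ∉ c := fun i hi => by
    have := φ_spec ⟨_, mono_mem σ hc⟩ (i := i) (by omega)
    rw [h i (by clear this; revert i; decide) (by omega), p48, if_pos (by omega)] at this
    have h2 : mono σ c hc • e8 (EG.dec i) = e8 (EG.dec i) := this
    rw [mono_e8] at h2
    split_ifs at h2 with h3
    · exact absurd h2.symm (e8_ne_neg _ _)
    · exact ⟨e8_inj h2, e8_inj h2 ▸ h3⟩
  obtain rfl := empty_of_low hc fun i hi => (h1 i hi).2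
  obtain rfl : σ = 1 := eq_one_of_rows fun r hr => by
    have h2 := EG.ofMask_mem_supports.2 (word_rows r hr)
    refine symmDiff_eq_bot.1 (empty_of_low (symmDiff_mem_supp (inv_supp σ _ h2) h2) fun i hi => ?_)
    have : EG.dec i ∈ σ • EG.ofMask r ↔ EG.dec i ∈ EG.ofMask r := by
      conv_lhs => rw [← (h1 i hi).1]
      exact Finset.smul_mem_smul_finset_iff σ
    simp [Finset.mem_symmDiff, this]
  exact mono_one

end Cfsg.Agent.Co1T.D
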