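import Cfsg.Agent.Spor.Co1F

/-! The monomial group `2^12:M24` on 3542 classes of vectors (helper23). -/

set_option autoImplicit false
set_option maxRecDepth 100000
set_option exponentiation.threshold 100000
set_option Elab.async false

namespace Cfsg.Agent.Co1T.D

open Equiv Subgroup Cfsg.Agent.Spor Cfsg.Agent.Leech Cfsg.Agent.Golay Cfsg.Agent.Mon
open scoped Pointwise

def c4 (v : LL) : Set LL := {w | ∃ u : LL, w - v = 4 • u}

theorem smul_c4 (k : NN) (v : LL) : k • c4 v = c4 (k • v) := by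
  ext w
  rw [Set.mem_smul_set_iff_inv_smul_mem]
  exact ⟨fun ⟨u, e⟩ => ⟨k • u, by rw [← smul_comm, ← e, smul_sub, smul_inv_smul]⟩,
    fun ⟨u, e⟩ => ⟨k⁻¹ • u, by rw [← smul_comm, ← e, smul_sub, inv_smul_smul]⟩⟩

theorem c4_eq {v w : LL} : c4 v = c4 w ↔ ∃ u : LL, v - w = 4 • u :=
  ⟨fun e => e.le ⟨0, by simp⟩, fun ⟨u, e⟩ => Set.ext fun x =>
    ⟨fun ⟨a, h⟩ => ⟨a + u, by rw [smul_add, ← h, ← e]; abel⟩, fun ⟨a, h⟩ => ⟨a - u, by rw [smul_sub, ← h, ← e]; abel⟩⟩⟩

noncomputable def msk (l : List ℕ) : ℕ :=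
  List.rec 0 (fun q _ m => Nat.xor (Nat.shiftLeft 1 (Nat.mod q 24)) m) l

noncomputable def par (l : List ℕ) : ℕ := List.rec 0 (fun q _ m => Nat.add (Nat.div q 24) m) l

noncomputable def key (l : List ℕ) : ℕ :=
  seqL (msk l) fun m => Nat.add (Nat.mul 2 (Nat.xor m (gE m))) (Nat.mod (par l) 2)

theorem sum_spec (l : List ℕ) (h : ∀ q ∈ l, q < 48) : msk l < 2 ^ 24 ∧ ∃ a : V, (((l.map p48).sum : LL) : V) = 8 • a ∧
    oddS a = EG.ofMask (msk l) ∧ ∑ i, a i = l.length - 2 * par l := by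
  induction l with
  | nil => exact ⟨by decide, 0, by simp, by ext; simp [mem_oddS, msk], by simp [par]⟩
  | cons q l ih =>
    obtain ⟨h1, a, h2, h3, h4⟩ := ih fun q hq => h q (List.mem_cons_of_mem _ hq)
    have hq := h q List.mem_cons_self
    have e1 : msk (q :: l) = 2 ^ (q % 24) ^^^ msk l := congrArg (· ^^^ msk l) (Nat.one_shiftLeft _)
    have e2 : par (q :: l) = q / 24 + par l := rfl
    have h5 : q % 24 < 24 := Nat.mod_lt _ (by decide)
    have h6 : oddS (Pi.single (EG.dec (q % 24)) 1 : V) = {EG.dec (q % 24)} := by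
      ext i; rw [mem_oddS, Pi.single_apply]; split_ifs with e <;> simp [e]
    have h7 : ((e8 (EG.dec (q % 24)) : LL) : V) = 8 • (Pi.single (EG.dec (q % 24)) 1 : V) := by
      ext i; rw [e8_apply, Pi.smul_apply, Pi.single_apply]; split_ifs <;> rfl
    rw [e1, e2, EG.ofMask_xor, EG.ofMask_two_pow h5, ← h3, List.map_cons, List.sum_cons, AddSubgroup.coe_add, h2]
    refine ⟨Nat.xor_lt_two_pow (Nat.pow_lt_pow_right (by decide) h5) h1, ?_⟩
    by_cases h8 : q < 24
    · refine ⟨Pi.single (EG.dec (q % 24)) 1 + a, ?_, by rw [oddS_add, h6], ?_⟩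
      · rw [smul_add, ← h7, p48, if_pos h8, Nat.mod_eq_of_lt h8]
      · simp [Finset.sum_add_distrib, h4, Nat.div_eq_of_lt h8]; ring
    · refine ⟨-Pi.single (EG.dec (q % 24)) 1 + a, ?_, by rw [oddS_add, oddS_neg, h6], ?_⟩
      · rw [smul_add, smul_neg, ← h7, p48, if_neg h8, show q % 24 = q - 24 by omega]; rfl
      · simp [Finset.sum_add_distrib, h4, show q / 24 = 1 by omega]; ring

theorem key_iff {l m : List ℕ} (hl : ∀ q ∈ l, q < 48) (hm : ∀ q ∈ m, q < 48) (e : l.length = m.length) :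
    c4 (l.map p48).sum = c4 (m.map p48).sum ↔ key l = key m := by
  obtain ⟨h1, a, h2, h3, h4⟩ := sum_spec l hl
  obtain ⟨k1, b, k2, k3, k4⟩ := sum_spec m hm
  have h5 : oddS (a - b) ∈ GSupp ↔ msk l ^^^ gE (msk l) = msk m ^^^ gE (msk m) := by
    rw [sub_eq_add_neg, oddS_add, oddS_neg, h3, k3, ← EG.ofMask_xor, ofMask_mem_supports_iff (Nat.xor_lt_two_pow h1 k1),
      isG_iff, gE_xor, ← Nat.xor_eq_zero_iff, ← Nat.xor_eq_zero_iff (x := msk l ^^^ gE (msk l))]
    exact iff_of_eq (congrArg (· = 0) (by ac_rfl))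
  have h6 : ∑ i, (a - b) i = 2 * par m - 2 * par l := by
    simp only [Pi.sub_apply, Finset.sum_sub_distrib, h4, k4, e]; ring
  have h7 : key l = key m ↔ oddS (a - b) ∈ GSupp ∧ 4 ∣ ∑ i, (a - b) i := by
    rw [h5, h6, key, key, seqL_eq, seqL_eq]
    show 2 * (msk l ^^^ gE (msk l)) + par l % 2 = 2 * (msk m ^^^ gE (msk m)) + par m % 2 ↔ _
    omega
  have h8 : ∀ u : LL, (l.map p48).sum - (m.map p48).sum = 4 • u ↔ ∀ i, (u : V) i = 2 * (a - b) i := fun u => by
    rw [Subtype.ext_iff, AddSubgroup.coe_sub, h2, k2, AddSubgroup.coe_nsmul, funext_iff]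
    refine forall_congr' fun i => ?_
    show 8 • a i - 8 • b i = 4 • (u : V) i ↔ (u : V) i = 2 * (a i - b i)
    simp only [nsmul_eq_mul]
    omega
  rw [c4_eq, h7]
  refine ⟨fun ⟨u, h⟩ => ?_, fun h => ⟨⟨_, mem_iff'.2 (Or.inl ⟨a - b, fun _ => rfl, h⟩)⟩, (h8 _).2 fun _ => rfl⟩⟩
  rw [h8] at h
  rcases mem_iff'.1 u.2 with ⟨c, h9, h10⟩ | ⟨c, h9, -⟩
  · rwa [show a - b = c from funext fun i => by have := h i; have := h9 i; omega]
  · have := h none; have := h9 none; omega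

noncomputable def dg (i : ℕ) : List ℕ :=
  seqL (Nat.land (Nat.shiftRight Co1N.PT (Nat.mul 24 i)) 16777215) fun c =>
    [Nat.land c 63, Nat.land (Nat.shiftRight c 6) 63, Nat.land (Nat.shiftRight c 12) 63, Nat.shiftRight c 18]

noncomputable def kt (i : ℕ) : ℕ := Nat.land (Nat.shiftRight Co1N.KT (Nat.mul 25 i)) 33554431

theorem dg_ok : allN 3542 (fun i => andB (allL (dg i) fun q => Nat.blt q 48) (seqL (kt i) fun k => andB (Nat.beq (key (dg i)) k)
    (Nat.beq (Nat.land (Nat.shiftRight Co1N.INV (Nat.mul 12 (Nat.add (Nat.mul (Nat.shiftRight k 13) 2) (Nat.land k 1))))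
      4095) i))) = true := by decide +kernel

theorem dg_len (i : ℕ) : (dg i).length = 4 := by rw [dg, seqL_eq]; rfl

theorem dg_lt {i : ℕ} (h : i < 3542) : ∀ q ∈ dg i, q < 48 := fun q hq =>
  Dce.blt_spec (allL_spec ((andB_eq_true _ _).1 (allN_spec dg_ok i h)).1 q hq)

theorem dg_key {i : ℕ} (h : i < 3542) : key (dg i) = kt i ∧ ∀ j < 3542, kt i = kt j → i = j := by
  have k := fun i h => (andB_eq_true _ _).1 ((seqL_eq _ _).symm.trans ((andB_eq_true _ _).1 (allN_spec dg_ok i h)).2)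
  exact ⟨Nat.eq_of_beq_eq_true (k i h).1, fun j hj e => by
    rw [← Nat.eq_of_beq_eq_true (k i h).2, e, Nat.eq_of_beq_eq_true (k j hj).2]⟩

noncomputable def chkB (x : ℕ) : Bool := seqL (Known.tabW Co1N.bnets 3542 12 12 [x]) fun t => allN 3542 fun j =>
  Nat.beq (key (List.rec [] (fun q _ m => actK x q :: m) (dg (Known.get2 12 t j)))) (kt j)

theorem chkB0 : allN 9 chkB = true := by decide +kernel

theorem chkB1 : allN 9 (fun x => chkB (Nat.add x 9)) = true := by decide +kernel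

theorem chkB2 : allN 9 (fun x => chkB (Nat.add x 18)) = true := by decide +kernel

theorem exψ : ∃ ψ, PermRep yK Co1N.bnets 3542 27 ψ := by
  refine (permRep_of_pts Co1N.bok top (fun i => c4 ((dg i).map p48).sum) (fun i hi j hj e => (dg_key hi).2 j hj ?_)
    fun x hx j hj => ?_).imp fun _ h => h.1
  · rw [← (dg_key hi).1, ← (dg_key hj).1, ← key_iff (dg_lt hi) (dg_lt hj) (by rw [dg_len, dg_len]), e]
  have h1 : chkB x = true := by
    rcases lt_or_ge x 9 with h | h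
    · exact allN_spec chkB0 x h
    rcases lt_or_ge x 18 with h' | h'
    · exact (show x - 9 + 9 = x by omega) ▸ allN_spec chkB1 (x - 9) (by omega)
    · exact (show x - 18 + 18 = x by omega) ▸ allN_spec chkB2 (x - 18) (by omega)
  rw [chkB, seqL_eq] at h1
  have h2 := Nat.eq_of_beq_eq_true (allN_spec h1 j hj)
  rw [inv_PP Co1N.bok (by decide) (by decide) x hj, ← (dg_key hj).1] at h2
  have h3 := dg_lt (perm_lt_of_fix (σ := (PP Co1N.bnets x)⁻¹)
    (fun i hi => by rw [Perm.inv_eq_iff_eq, PP_of_le Co1N.bok x hi]) hj)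
  have h4 := dg_len ((PP Co1N.bnets x)⁻¹ j)
  generalize dg ((PP Co1N.bnets x)⁻¹ j) = l at h2 h3 h4 ⊢
  have h5 : ∀ l : List ℕ, (List.rec [] (fun q _ m => actK x q :: m) l : List ℕ) = l.map (actK x) := fun l => by
    induction l with
    | nil => rfl
    | cons q l ih => exact congrArg _ ih
  rw [h5, ← key_iff (by simpa using fun q hq => (actK_spec x (h3 q hq)).1) (dg_lt hj) (by rw [List.length_map, h4, dg_len])] at h2
  rw [smul_c4, ← h2, List.smul_sum, List.map_map, List.map_map]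
  exact congrArg (fun l => c4 (List.sum l)) (List.map_congr_left fun q hq => (actK_spec x (h3 q hq)).2)

noncomputable def ψ : NN →* Perm ℕ := exψ.choose

theorem rψ : PermRep yK Co1N.bnets 3542 27 ψ := exψ.choose_spec

theorem stabC : IsStab ψ (genW yK (sing [5, 6, 7, 8, 9, 10, 11, 12, 13, 14, 15, 16, 17, 18, 19, 20, 21, 22, 23, 24])) 0 :=
  rψ.stab_le (rψ.trans (by decide) Co1N.otr) (fun c hc => fix_of_chkClosed rψ.ok
    (ws := sing [5, 6, 7, 8, 9, 10, 11, 12, 13, 14, 15, 16, 17, 18, 19, 20, 21, 22, 23, 24]) (by decide +kernel)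
    ((rψ.map_genW (by decide +kernel)).le (Subgroup.mem_map_of_mem ψ hc))) (m := 283115520) card_NN (by decide)
    (CardGe.of_map φ (by rw [rφ.map_genW (by decide +kernel)]; exact Co1N.lw0.cardGe))

end Cfsg.Agent.Co1T.D
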