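import Cfsg.Agent.Co1T.D1
import Cfsg.Agent.Spor.Dce9

/-! `Co1` is the universal completion of the amalgam of `2^11:M24` and the involution centraliser (helper23). -/

set_option autoImplicit false
set_option maxRecDepth 100000
set_option exponentiation.threshold 100000

namespace Cfsg.Agent.Co1T.D

open Equiv Subgroup Cfsg.Agent.Spor Cfsg.Agent.Leech Cfsg.Agent.Golay Cfsg.Agent.Mon
open scoped Pointwise

noncomputable abbrev gC : ℕ → CG := Dce.gD NN.subtype yK X1 27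

noncomputable def evC (w : List ℕ) : ℕ :=
  List.rec oneC (fun x _ ih => seqL ih fun a => seqL (iteB (Nat.beq x 27) cX (moC (ls x, lp x))) fun b => mulC a b) w

theorem evC_RC (w : List ℕ) : RC (evC w) (ev gC w) := by
  induction w with
  | nil => exact grpC.one
  | cons x w ih =>
    have e : evC (x :: w) = mulC (evC w) (iteB (Nat.beq x 27) cX (moC (ls x, lp x))) :=
      (seqL_eq (evC w) fun a => seqL (iteB (Nat.beq x 27) cX (moC (ls x, lp x))) fun b => mulC a b).trans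
        (seqL_eq _ fun b => mulC (evC w) b)
    rw [e, ev_cons, Dce.iteB_eq]
    refine grpC.mul ih ?_
    split_ifs with h
    · rw [Nat.eq_of_beq_eq_true h, gC, Dce.gD_t]; exact rX
    · rw [gC, Dce.gD_k (Dce.ne_of_beq h)]; exact yK_RC x

theorem evC_eq {u v : List ℕ} (h : Nat.beq (evC u) (evC v) = true) : ev gC u = ev gC v :=
  canC.func (evC_RC u) (Nat.eq_of_beq_eq_true h ▸ evC_RC v)

noncomputable def inH (w : List ℕ) : Bool := allL [0, 1, 2, 3, 4, 5, 6, 7, 8, 9, 10, 11] fun b =>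
  Nat.beq (runA actK (5 :: w) b) (runA actK (w ++ [5]) b)

theorem inH_spec {w : List ℕ} (h : inH w = true) : mk1 (ev yK w).1 ∈ H0 := by
  have := congrArg (fun k : NN => mk1 k.1) (paK.eq h)
  simp only [ev_cons, ev_append, ev_nil, one_mul, Subgroup.coe_mul, map_mul, yK5] at this
  exact mem_centralizer_singleton_iff.2 this

noncomputable def F4 (g : CG) : ℤ := ∑ j, q4 (g • e8 j)

def F4C (c : ℕ) : ℤ := ∑ j, ∑ i, ((Comp.get 9 511 (Comp.get 216 MM c (EG.enc j)) (EG.enc i) : ℤ) - 8) ^ 4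

theorem F4_RC {c : ℕ} {g : CG} (h : RC c g) : F4 g = F4C c :=
  Finset.sum_congr rfl fun j _ => Finset.sum_congr rfl fun i _ => by rw [(h.2 j).pb.get, add_sub_cancel_right]

theorem F4_mul (g : CG) {k k' : CG} (h : k ∈ NN) (h' : k' ∈ NN) : F4 (k * g * k') = F4 g := by
  obtain ⟨σ, c, hc, rfl⟩ := h'
  rw [F4, F4, ← Equiv.sum_comp σ.1 fun j => q4 (g • e8 j)]
  refine Finset.sum_congr rfl fun j _ => ?_
  rw [mul_smul, mul_smul, q4_NN k h, mono_e8]
  split_ifs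
  · rw [smul_neg, ← negC_smul, q4_NN negC (sg_mem _)]; rfl
  · rfl

theorem F4_pw : ∀ i < 6, F4 (ev gC (Dce.pw Co1F.tab.at (getL Co1F.nm 0 i))) =
    getL [98304, 24576, 15360, 12288, 11328, 10752] 0 i := fun i hi => by
  rw [F4_RC (evC_RC _), ← seqL_eq (evC _) F4C]
  revert i
  decide +kernel

theorem gen_CG (S : Subgroup CG) (h : NN ≤ S) (hX : X1 ∈ S) : S = ⊤ := coatom_NN.2 S (lt_of_le_of_ne h fun e => by
  have h1 := F4_mul 1 (e ▸ hX) NN.one_mem
  rw [mul_one, mul_one, F4_RC rX, F4_RC grpC.one] at h1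
  exact absurd h1 (by decide +kernel))

section
variable {G : Type} [Group G] (ψ : NN →* G) (τ : G)

/-- The diagonal subgroup. -/
noncomputable def Dg : Subgroup (G × CG) := closure (Set.range (ψ.prod NN.subtype) ∪ {(τ, X1)})

noncomputable def ιD : NN →* Dg ψ τ := (ψ.prod NN.subtype).codRestrict _ fun k => subset_closure (Or.inl ⟨k, rfl⟩)

noncomputable def TD : Dg ψ τ := ⟨(τ, X1), subset_closure (Or.inr rfl)⟩

noncomputable def πD : Dg ψ τ →* CG := (MonoidHom.snd _ _).comp (Dg ψ τ).subtype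

theorem genD (S : Subgroup (Dg ψ τ)) (h : ∀ k, ιD ψ τ k ∈ S) (hT : TD ψ τ ∈ S) : S = ⊤ := by
  refine eq_top_iff.2 fun g _ => ?_
  have : Dg ψ τ ≤ S.map (Dg ψ τ).subtype := (closure_le _).2 (by
    rintro _ (⟨k, rfl⟩ | rfl)
    exacts [⟨_, h k, rfl⟩, ⟨_, hT, rfl⟩])
  obtain ⟨s, hs, e⟩ := this g.2
  exact Subtype.ext e ▸ hs

theorem relE_D (r : List (List ℕ)) : (Dce.relE (ιD ψ τ) yK (TD ψ τ) r).1 =
    (Dce.relE ψ yK τ r, Dce.relE NN.subtype yK X1 r) := by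
  induction r with
  | nil => rfl
  | cons s r ih => rw [Dce.relE, Subgroup.coe_mul, Subgroup.coe_mul, ih]; rfl

theorem π_ev (w : List ℕ) : πD ψ τ (ev (Dce.gD (ιD ψ τ) yK (TD ψ τ) 27) w) = ev gC w := by
  rw [map_ev]
  refine ev_congr fun x _ => ?_
  unfold gC Dce.gD
  split_ifs <;> rfl

variable {ψ} (φ : H0 →* G) (h : ∀ (b : NN) (hb : mk1 b ∈ H0), φ ⟨mk1 b, hb⟩ = ψ b)
include h

theorem relE_φ {r : List (List ℕ)} (hr : ∀ s ∈ r, inH s = true) : ∃ hm : mk1 (Dce.relE NN.subtype yK X1 r) ∈ H0,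
    Dce.relE ψ yK (φ ⟨T, T_mem⟩) r = φ ⟨_, hm⟩ := by
  induction r with
  | nil => exact ⟨H0.one_mem, φ.map_one.symm⟩
  | cons s r ih =>
    obtain ⟨hm, e⟩ := ih fun s hs => hr s (List.mem_cons_of_mem _ hs)
    have hs := inH_spec (hr s List.mem_cons_self)
    exact ⟨H0.mul_mem (H0.mul_mem hm T_mem) hs, by rw [Dce.relE, e, ← h _ hs, ← map_mul, ← map_mul]; rfl⟩

theorem lift0 [Finite G] (hm : Commute (ψ (yK 16)) (φ ⟨T, T_mem⟩)) :
    ∃ j : CG →* G, (∀ k : NN, j k = ψ k) ∧ j X1 = φ ⟨T, T_mem⟩ := by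
  set τ := φ ⟨T, T_mem⟩ with hτ
  have comm : ∀ x, 0 < Dce.tb Co1F.sgc x → TD ψ τ * ιD ψ τ (yK x) = ιD ψ τ (yK (Dce.sgm Co1F.sgc x)) * TD ψ τ := by
    intro x hx
    have hx' : x < 27 := by
      by_contra e
      have e2 : Co1F.sgc >>> (6 * x) = 0 := by
        rw [show 6 * x = 162 + (6 * x - 162) by omega, Nat.shiftRight_add, show Co1F.sgc >>> 162 = 0 by decide +kernel,
          Nat.zero_shiftRight]
      rw [show Dce.tb Co1F.sgc x = Co1F.sgc >>> (6 * x) &&& 63 from rfl, e2, Nat.zero_and] at hx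
      exact lt_irrefl _ hx
    have hc : ∀ x < 27, 0 < Dce.tb Co1F.sgc x → Dce.sgm Co1F.sgc x ≠ 27 ∧
        Nat.beq (evC [x, 27]) (evC [27, Dce.sgm Co1F.sgc x]) = true ∧
        (x = 16 ∧ Dce.sgm Co1F.sgc x = 16 ∨ inH [x] = true ∧ inH [Dce.sgm Co1F.sgc x] = true) := by decide +kernel
    obtain ⟨h1, h2, h3⟩ := hc x hx' hx
    have h4 := evC_eq h2
    rw [ev_two, ev_two, gC, Dce.gD_t, Dce.gD_k h1, Dce.gD_k hx'.ne] at h4
    refine Subtype.ext (Prod.ext ?_ h4)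
    show τ * ψ _ = ψ _ * τ
    rcases h3 with ⟨rfl, e⟩ | ⟨h5, h6⟩
    · rw [e]; exact hm.eq.symm
    · have h7 := inH_spec h5
      have h8 := inH_spec h6
      rw [ev_one] at h7 h8
      rw [← h _ h7, ← h _ h8, hτ, ← map_mul, ← map_mul]
      exact congrArg φ (Subtype.ext ((mk1.map_mul _ _).symm.trans ((congrArg mk1 h4).trans (mk1.map_mul _ _))))
  have hr := Dce.hyp_rel (ι := NN.subtype) (y := yK) (T := X1) (tl := 27) (rels := Co1F.rels) (by decide +kernel)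
    fun w hw => evC_eq (v := []) (by revert w; decide +kernel)
  have hB : ∀ r ∈ Co1F.rels, ∀ s ∈ r, inH s = true := by decide +kernel
  have rel : ∀ r ∈ Co1F.rels, Dce.relE (ιD ψ τ) yK (TD ψ τ) r = 1 := fun r hr' => by
    obtain ⟨hm, e⟩ := relE_φ φ h (hB r hr')
    refine Subtype.ext ((relE_D ψ τ r).trans (Prod.ext ?_ (hr r hr')))
    exact e.trans ((congrArg φ (Subtype.ext ((congrArg mk1 (hr r hr')).trans mk1.map_one))).trans φ.map_one)
  have hyp : Dce.Hyp (ιD ψ τ) yK (TD ψ τ) D.φ 48 actK [0, 1, 2, 3, 4, 5, 6, 7, 8, 9, 10, 11] 27 Co1F.ivc Co1F.sgc [27]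
      Co1F.rels :=
    ⟨paK, by decide, Dce.hyp_inv paK (by decide +kernel), by
      simpa [Dce.relE, Dce.gD_t] using rel _ List.mem_cons_self, comm, rel⟩
  have cert : Dce.Cert (ιD ψ τ) yK (TD ψ τ) 27 Co1F.subs Co1F.tab.at D.ψ 3542 0 Co1F.sz.length Co1F.nm Co1F.sz :=
    hyp.cert Co1F.steps rψ (by decide) (by decide)
      (fun k hk => Dce.hC_of_comm comm (xs := [5, 6, 7, 8, 9, 10, 11, 12, 13, 14, 15, 16, 17, 18, 19, 20, 21, 22, 23, 24])
        (by decide +kernel) ((genW_sing _ _).le ((stabC k).2 hk))) (by decide) rfl (by decide) Co1F.tree Co1F.rows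
  have hs : ∀ w ∈ Co1F.subs, ∀ x ∈ w, x ≠ 27 := by decide
  have o := (cert.orbs (genD ψ τ) (ιD ψ τ).range (fun k => ⟨k, rfl⟩) (fun w hw => ⟨_, (Dce.ev_gD (hs w hw)).symm⟩)
    (smul_basePt_eq_iff _) (fun x => QuotientGroup.induction_on x fun g => ⟨g, congrArg _ (mul_one g)⟩) (by
      rintro i hi j hj k _ ⟨k', rfl⟩ e
      have e' := congrArg (fun x => F4 (πD ψ τ x)) e
      simp only [map_mul, π_ev] at e'
      replace e' := (F4_mul _ k.2 k'.2).symm.trans e'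
      rw [F4_pw i hi, F4_pw j hj] at e'
      clear e; revert i j; decide)).1
  have hs : Function.Surjective (πD ψ τ) :=
    MonoidHom.range_eq_top.1 (gen_CG _ (fun k hk => ⟨ιD ψ τ ⟨k, hk⟩, rfl⟩) ⟨TD ψ τ, rfl⟩)
  have hb := hs.bijective_of_nat_card_le (by
    rw [← (ιD ψ τ).range.card_mul_index, o.index, card_Co0]
    exact (Nat.mul_le_mul_right _ (cardLe_range _ card_NN (by decide)).2).trans (by decide))
  let e := MulEquiv.ofBijective _ hb
  refine ⟨((MonoidHom.fst _ _).comp (Dg ψ τ).subtype).comp e.symm.toMonoidHom, fun k => ?_, ?_⟩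
  · show ((e.symm (e (ιD ψ τ k)) : Dg ψ τ) : G × CG).1 = _
    rw [e.symm_apply_apply]; rfl
  · show ((e.symm (e (TD ψ τ)) : Dg ψ τ) : G × CG).1 = _
    rw [e.symm_apply_apply]; rfl

end

theorem lift {G : Type*} [Group G] [Finite G] (ψ : NN →* G) (φ : H0 →* G)
    (h : ∀ (b : NN) (hb : mk1 b ∈ H0), φ ⟨mk1 b, hb⟩ = ψ b) (hm : Commute (ψ (yK 16)) (φ ⟨T, T_mem⟩)) :
    ∃ j : CC →* G, (∀ k : NN, j (mk1 k) = ψ k) ∧ j T = φ ⟨T, T_mem⟩ := by
  let e : Shrink.{0} G ≃* G := Shrink.mulEquiv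
  have : Finite (Shrink.{0} G) := Finite.of_equiv _ e.symm.toEquiv
  obtain ⟨j, h1, h2⟩ := lift0 (ψ := e.symm.toMonoidHom.comp ψ) (e.symm.toMonoidHom.comp φ)
    (fun b hb => congrArg e.symm (h b hb)) (hm.map e.symm)
  have h3 : ∀ k : NN, e (j k) = ψ k := fun k => (congrArg e (h1 k)).trans (e.apply_symm_apply _)
  refine ⟨QuotientGroup.lift _ (e.toMonoidHom.comp j) fun g hg => ?_, h3, (congrArg e h2).trans (e.apply_symm_apply _)⟩
  rcases mem_center_Co0.1 hg with rfl | rfl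
  · exact map_one _
  · refine (h3 ⟨negC, sg_mem _⟩).trans ((h ⟨negC, sg_mem _⟩ (mk1_neg ▸ H0.one_mem)).symm.trans ?_)
    exact (congrArg φ (Subtype.ext mk1_neg)).trans φ.map_one

end Cfsg.Agent.Co1T.D
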