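import Cfsg.Agent.Co1T.A0

/-! Involutions of `O⁺(8,2)`: `perp_fix`, `ex_sing`, the Pfaffian `pf` (`pf_one`) and the degree identity `deg3`. -/

set_option autoImplicit false

namespace Cfsg.Agent.Co1A

open Cfsg.Agent.Geom Cfsg.Agent.Geom.Formed Module

theorem B_map (g : O8) (a b : W) : B (g.1 a) (g.1 b) = B a b := OG.map_polar g a b

theorem B_fix {t : O8} {c : W} (h : t.1 c = c) (w : W) : B c (w + t.1 w) = 0 := by
  rw [B_add, ← B_map t c w, h, z2_add]

theorem eq_of_add {a b : W} (h : a + b = 0) : b = a := by rw [← W_neg a]; exact (neg_eq_of_add_eq_zero_right h).symm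

theorem perp_fix (t : O8) {v : W} (h : ∀ c, t.1 c = c → B c v = 0) : ∃ w, w + t.1 w = v := by
  have : v ∈ LinearMap.range (LinearMap.id + (t.1 : W →ₗ[ZMod 2] W)) := by
    rw [← nd.perp_perp (LinearMap.range _), mem_perp_quad]
    refine fun c hc => h c (eq_of_add (nd _ fun w => ?_))
    obtain ⟨w, rfl⟩ := t.1.surjective w
    have := mem_perp_quad.1 hc _ ⟨w, rfl⟩
    show B (c + t.1 c) (t.1 w) = 0
    rw [B_add', B_map, add_comm, ← B_add, B_comm]; exact this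
  exact this

theorem S_mv (t : O8) (w : W) : S (w + t.1 w) = B w (t.1 w) := by rw [S_add, OG.map_Q, z2_add, zero_add]

theorem fix_mv {t : O8} (h : t * t = 1) (w : W) : t.1 (w + t.1 w) = w + t.1 w := by
  rw [map_add, ← OG.mul_apply, h, add_comm]; rfl

theorem ex_sing {t : O8} (ht : t ∈ Om) (h1 : t ≠ 1) (h2 : t * t = 1) : ∃ w, w + t.1 w ≠ 0 ∧ B w (t.1 w) = 0 := by
  by_contra H
  have k : ∀ w, w + t.1 w ≠ 0 → S (w + t.1 w) = 1 := fun w hw => z2_ne fun e => H ⟨w, hw, S_mv t w ▸ e⟩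
  obtain ⟨w, hw⟩ : ∃ w, w + t.1 w ≠ 0 := by
    by_contra e
    exact h1 (OG.ext fun w => eq_of_add (not_not.1 fun f => e ⟨w, f⟩))
  refine refl_notMem (k w hw) ((OG.ext fun x => ?_ : t = refl S (w + t.1 w)) ▸ ht)
  rw [refl_ap (k w hw)]
  by_cases e : x + t.1 x = 0
  · rw [B_comm, B_fix (eq_of_add e), zero_smul, add_zero, eq_of_add e]
  · have : x + t.1 x = w + t.1 w := by
      by_contra f
      have := k (x + w) fun g => f (eq_of_add (by rw [← g, map_add]; abel)).symm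
      rw [map_add t.1, add_add_add_comm, S_add, k x e, k w hw, B_fix (fix_mv h2 x)] at this
      cases this
    rw [← this, B_add', B_self, B_comm, ← S_mv, k x e, zero_add, one_smul, ← add_assoc, W_add, zero_add]

theorem ex_basis {L : Submodule (ZMod 2) W} (h : ∀ v, v ∈ L ↔ ∀ c ∈ L, B c v = 0) : ∃ w : Fin 4 → W,
    (∀ c : Fin 4 → ZMod 2, ∑ i, c i • w i ∈ L → c = 0) ∧ ∀ v, ∃ c : Fin 4 → ZMod 2, v + ∑ i, c i • w i ∈ L := by
  have e : (ofQuad S).perp L = L := Submodule.ext fun v => mem_perp_quad.trans (h v).symm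
  have := nd.finrank_add_finrank_perp L
  have k := L.finrank_quotient_add_finrank
  rw [e, rk] at this; rw [rk] at k
  let b := finBasisOfFinrankEq (ZMod 2) (W ⧸ L) (show _ = 4 by omega)
  choose w hw using fun i => L.mkQ_surjective (b i)
  have s : ∀ c : Fin 4 → ZMod 2, L.mkQ (∑ i, c i • w i) = ∑ i, c i • b i := fun c => by simp only [map_sum, map_smul, hw]
  refine ⟨w, fun c hc => funext (Fintype.linearIndependent_iff.1 b.linearIndependent c ?_), fun v => ⟨b.repr (L.mkQ v), ?_⟩⟩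
  · rw [← s]; exact (Submodule.Quotient.mk_eq_zero L).2 hc
  · rw [← W_sub, ← Submodule.Quotient.eq]; exact ((s _).trans (b.sum_repr _)).symm

def pf (n : Fin 4 → Fin 4 → ZMod 2) : ZMod 2 := n 0 1 * n 2 3 + n 0 2 * n 1 3 + n 0 3 * n 1 2

/-- The alternating matrix of `g` on `W / L`. -/
noncomputable def am (w : Fin 4 → W) (g : O8) (i j : Fin 4) : ZMod 2 := B (w i + g.1 (w i)) (w j)

theorem am_mul (w : Fin 4 → W) {g k : O8} (h : ∀ v, g.1 (v + k.1 v) = v + k.1 v) : am w (g * k) = am w g + am w k := by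
  ext i j
  have := h (w i)
  rw [map_add, ← eq_sub_iff_add_eq', W_sub] at this
  rw [Pi.add_apply, Pi.add_apply, am, am, am, OG.mul_apply, this, ← B_add']; congr 1; abel

theorem pf_one {L : Submodule (ZMod 2) W} {w : Fin 4 → W} (h1 : ∀ c : Fin 4 → ZMod 2, ∑ i, c i • w i ∈ L → c = 0)
    (h2 : ∀ v, ∃ c : Fin 4 → ZMod 2, v + ∑ i, c i • w i ∈ L) {g : O8} (h : ∀ v, g.1 v = v ↔ v ∈ L)
    (ha : ∀ v, B v (g.1 v) = 0) : pf (am w g) = 1 := z2_ne fun e => by
  have d : ∀ i, am w g i i = 0 := fun i => by rw [am, B_add', B_self, B_comm, ha, add_zero]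
  have s : ∀ i j, am w g i j = am w g j i := fun i j => by
    have := ha (w i + w j)
    rw [map_add, B_add, B_add', B_add', ha, ha, zero_add, add_zero, ← CharTwo.sub_eq_add, sub_eq_zero] at this
    rw [am, am, B_add', B_add', B_comm (w i), B_comm (g.1 _), this, B_comm (w i)]
  have : ∀ a b c d e f : ZMod 2, a * f + b * e + c * d = 0 → ∃ x : Fin 4 → ZMod 2, x ≠ 0 ∧ x 1 * a + x 2 * b + x 3 * c = 0 ∧
    x 0 * a + x 2 * d + x 3 * e = 0 ∧ x 0 * b + x 1 * d + x 3 * f = 0 ∧ x 0 * c + x 1 * e + x 2 * f = 0 := by decide +kernel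
  obtain ⟨x, x0, k⟩ := this _ _ _ _ _ _ e
  have k : ∀ j, ∑ i, x i * am w g i j = 0 := fun j => by
    fin_cases j <;> simp only [Fin.sum_univ_four, Fin.reduceFinMk, d, mul_zero, add_zero, zero_add, s 1 0, s 2 0, s 3 0,
      s 2 1, s 3 1, s 3 2] <;> tauto
  refine x0 (h1 x ((h _).1 (eq_of_add (nd _ fun v => ?_))))
  obtain ⟨c, hc⟩ := h2 v
  have := B_fix ((h _).2 hc) (∑ i, x i • w i)
  show B _ v = 0
  rw [B_comm, B_add, B_comm _ (∑ i, c i • w i)] at this
  rw [← this, eq_comm, add_eq_left, B_comm, map_sum, ← Finset.sum_add_distrib]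
  simp only [B, map_smul, ← smul_add, ← QuadraticMap.polarBilin_apply_apply, map_sum, LinearMap.sum_apply,
    LinearMap.smul_apply]
  exact Finset.sum_eq_zero fun j _ => by
    rw [show (∑ i, x i • S.polarBilin (w i + g.1 (w i)) (w j)) = 0 from k j, smul_zero]

theorem deg3 {Y : Type*} [Mul Y] {ρ : Y → Fin 4 → Fin 4 → ZMod 2} {β : Y → Y → ZMod 2} {ω : Fin 4 → Fin 4 → ZMod 2}
    (h : ∀ a b, ρ (a * b) = ρ a + ρ b + β a b • ω) (hβ : ∀ a b c, β (a * b) c = β a c + β b c) (a b c d : Y) :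
    pf (ρ a) + pf (ρ b) + pf (ρ c) + pf (ρ d) + pf (ρ (a * b)) + pf (ρ (a * c)) + pf (ρ (a * d)) + pf (ρ (b * c)) +
      pf (ρ (b * d)) + pf (ρ (c * d)) + pf (ρ (a * b * c)) + pf (ρ (a * b * d)) + pf (ρ (a * c * d)) +
      pf (ρ (b * c * d)) + pf (ρ (a * b * c * d)) = 0 := by
  simp only [h, hβ, pf, Pi.add_apply, Pi.smul_apply, smul_eq_mul]
  grind

end Cfsg.Agent.Co1A
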