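import Cfsg.Agent.Co1T.M1
import Cfsg.Agent.Co1T.F1

/-! If `C(z) = 2^{1+8}.Ω⁺(8,2)` and `z` is not isolated, then `z` is fused in `Q` (`Fr.ex_fused`). -/

set_option autoImplicit false
set_option linter.unusedSectionVars false

namespace Cfsg.Agent.Co1A

open Cfsg.Agent.Geom Cfsg.Agent.Geom.Formed Subgroup Cfsg.Agent.BG Cfsg.Agent.LES Cfsg.Agent.PGrp Module

variable {G : Type*} [Group G] [Finite G] {z x y u a b d : G} {Q P : Subgroup G} {p p' : G → W} {μ : C1[z] →* O8}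
  {μ' : C1[u] →* O8}

def WC (z : G) (Q : Subgroup G) : Prop := ∀ x ∈ Q, IsConj z x → x = z

structure Gd (z u : G) : Prop where
  cj : IsConj z u
  cm : u ∈ C1[z]
  ne : u ≠ z
  nc : ¬ IsConj z (u * z)

theorem Gd.symm (h : Gd z u) : Gd u z :=
  ⟨h.cj.symm, mem_cent1_comm.1 h.cm, h.ne.symm, fun c => h.nc (by rw [mem_cent1.1 h.cm]; exact h.cj.trans c)⟩

theorem Fr.move (F : Fr z Q p μ) (w : WC z Q) (c : IsConj z u) :
    ∃ (P : Subgroup G) (p' : G → W) (μ' : C1[u] →* O8), Fr u P p' μ' ∧ WC u P := by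
  obtain ⟨g, rfl⟩ := isConj_iff.1 c
  let θ : C1[z] →* C1[g * z * g⁻¹] := ((MulAut.conj g).toMonoidHom.comp C1[z].subtype).codRestrict _ fun x => by
    rw [C1_conj]; exact ⟨x, x.2, rfl⟩
  have su : Function.Surjective θ := fun ⟨x, hx⟩ => by
    rw [C1_conj] at hx
    obtain ⟨y, hy, rfl⟩ := hx
    exact ⟨⟨y, hy⟩, rfl⟩
  have hp : commutator C1[z] ⊔ Q.subgroupOf C1[z] = ⊤ := by
    rw [← show μ.ker = Q.subgroupOf C1[z] from Subgroup.ext F.ker, ← comap_map_eq, map_commutator_eq, F.range,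
      commutator_perfect nd (by rw [rk]; decide), eq_top_iff]
    exact fun h _ => F.mem h
  obtain ⟨p', μ', F'⟩ := exists_Fr (F.le.conj g) (by rw [card_cj, F.card]; rfl) (by rw [C1_conj, card_cj, F.cardH]; rfl) (by
    rw [eq_top_iff, ← MonoidHom.range_eq_top.2 su, θ.range_eq_map, ← hp, Subgroup.map_sup]
    exact sup_le_sup (by rw [map_commutator_eq]; exact commutator_mono le_top le_top)
      fun _ ⟨x, hx, e⟩ => e ▸ ⟨x, hx, rfl⟩)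
  refine ⟨_, p', μ', F', ?_⟩
  rintro _ ⟨x, hx, rfl⟩ k
  rw [w x hx (c.trans (k.trans (isConj_iff.2 ⟨g, rfl⟩).symm))]; rfl

namespace Fr
variable (F : Fr z Q p μ)
include F

theorem uu (h : IsConj z u) : u * u = 1 := by
  obtain ⟨g, rfl⟩ := isConj_iff.1 h
  rw [conj_mul, F.es.zz]; simp

theorem p_mv (h : C1[z]) (hx : x ∈ Q) : p (h * x * h.1⁻¹ * x⁻¹) = p x + (μ h).1 (p x) := by
  rw [F.add (F.conj h hx) (inv_mem hx), F.inv hx, F.act h x hx, add_comm]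

variable (g : Gd z u)
include g

theorem tt1 : μ ⟨u, g.cm⟩ * μ ⟨u, g.cm⟩ = 1 := by
  rw [← map_mul, show (⟨u, g.cm⟩ * ⟨u, g.cm⟩ : C1[z]) = 1 from Subtype.ext (F.uu g.cj), map_one]

theorem gfix (hx : x ∈ Q) : (μ ⟨u, g.cm⟩).1 (p x) = p x ↔ Commute u x := by
  rw [← F.act _ x hx, eq_comm, F.eq_iff hx (F.conj ⟨u, g.cm⟩ hx), cj_eq_iff_comm, or_iff_left]
  refine fun e => g.nc (g.cj.trans (isConj_iff.2 ⟨x⁻¹, ?_⟩))
  rw [inv_inv, mul_assoc, mul_inv_eq_iff_eq_mul.1 e, mul_assoc, inv_mul_cancel_left, mem_cent1.1 g.cm]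

theorem aty (w : W) : B w ((μ ⟨u, g.cm⟩).1 w) = 0 := by
  obtain ⟨x, hx, rfl⟩ := F.surj w
  have m := Q.mul_mem (F.conj ⟨u, g.cm⟩ hx) (inv_mem hx)
  have c := (F.gfix g m).1 (by rw [F.p_mv ⟨u, g.cm⟩ hx, fix_mv (F.tt1 g)])
  rw [← S_mv, ← F.p_mv _ hx, F.sq m]
  calc _ = u * x * u⁻¹ * x⁻¹ * (u * (u * x * u⁻¹ * x⁻¹) * u⁻¹) := by rw [cj_eq_iff_comm.2 c]
    _ = u * x * u⁻¹ * x⁻¹ * (u * u) * x * u⁻¹ * x⁻¹ * u⁻¹ := by group
    _ = u * x * u⁻¹ * x⁻¹ * 1 * x * u⁻¹ * x⁻¹ * u⁻¹ := by rw [F.uu g.cj]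
    _ = u * x * (u * u)⁻¹ * x⁻¹ * u⁻¹ := by group
    _ = 1 := by rw [F.uu g.cj]; group

theorem glift {s : O8} (hs : s ∈ Om) (c : s * μ ⟨u, g.cm⟩ * s⁻¹ = μ ⟨u, g.cm⟩) : ∃ h : C1[z], μ h = s ∧ Commute h.1 u := by
  obtain ⟨h, rfl⟩ := F.lift hs
  let k : C1[z] := ⟨u, g.cm⟩
  have g' : Gd z (h * k * h⁻¹ : C1[z]) := ⟨g.cj.trans (isConj_iff.2 ⟨h, rfl⟩), Subtype.prop _, fun e => g.ne (by
    have : h.1 * u * h.1⁻¹ = h.1 * z * h.1⁻¹ := e.trans (cj_eq_iff_comm.2 (mem_cent1.1 h.2)).symm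
    simpa using this), fun e => g.nc (e.trans (IsConj.symm (isConj_iff.2 ⟨h, by
      rw [← conj_mul, cj_eq_iff_comm.2 (show Commute h.1 z from mem_cent1.1 h.2)]; rfl⟩)))⟩
  have e : μ (h * k * h⁻¹) = μ k := by simpa using c
  have m : (h * k * h⁻¹ * k⁻¹ : C1[z]).1 ∈ Q := (F.ker _).1 (by rw [map_mul, e, map_inv, mul_inv_cancel])
  obtain ⟨w, hw⟩ := perp_fix (μ k) (v := p (h * k * h⁻¹ * k⁻¹ : C1[z])) fun v hv => by
    obtain ⟨x, hx, rfl⟩ := F.surj v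
    exact (F.comm hx m).2 (((F.gfix g' hx).1 (e ▸ hv)).mul_left ((F.gfix g hx).1 hv).inv_left).symm
  obtain ⟨x, hx, rfl⟩ := F.surj w
  have n := Q.mul_mem hx (F.conj k (inv_mem hx))
  rcases (F.eq_iff n m).1 (by rw [F.add hx (F.conj k (inv_mem hx)), F.act k _ (inv_mem hx), F.inv hx, hw]) with f | f
  · refine ⟨⟨x, F.Q_le hx⟩⁻¹ * h, by rw [map_mul, map_inv, (F.ker _).2 hx, inv_one, one_mul], cj_eq_iff_comm.1 ?_⟩
    have : h.1 * u * h.1⁻¹ * u⁻¹ = x * (u * x⁻¹ * u⁻¹) := f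
    show x⁻¹ * h.1 * u * (x⁻¹ * h.1)⁻¹ = u
    rw [show x⁻¹ * h.1 * u * (x⁻¹ * h.1)⁻¹ = x⁻¹ * (h.1 * u * h.1⁻¹ * u⁻¹) * u * x by group, this]; group
  · refine absurd (g'.cj.trans (IsConj.symm (isConj_iff.2 ⟨x, ?_⟩))) g.nc
    have : h.1 * u * h.1⁻¹ * u⁻¹ = x * (u * x⁻¹ * u⁻¹) * z := f
    show x * (u * z) * x⁻¹ = h.1 * u * h.1⁻¹
    rw [mul_inv_eq_iff_eq_mul.1 this, mul_assoc _ z, ← mem_cent1.1 g.cm, mul_assoc, mul_assoc, ← (F.es.zc _ (inv_mem hx)).eq]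
    group

theorem trv {v : W} (h0 : v ≠ 0) (h1 : ∀ c, (μ ⟨u, g.cm⟩).1 c = c → B c v = 0) : ∃ h : C1[z], Commute h.1 u ∧
    (μ h).1 v ≠ v ∧ ∀ c, (μ ⟨u, g.cm⟩).1 c = c → (μ h).1 c = c ∨ (μ h).1 c = c + (v + (μ h).1 v) := by
  obtain ⟨f, hf⟩ := nd.exists_eq_one h0
  obtain ⟨w, hw⟩ := perp_fix _ h1
  set t := μ ⟨u, g.cm⟩
  have s : S (f + t.1 f) = 0 := (S_mv t f).trans (F.aty g f)
  have b : B (f + t.1 f) f = 0 := by rw [B_add', B_self, B_comm, F.aty g, add_zero]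
  obtain ⟨h, e, c⟩ := F.glift g (eich_mem_commutator nd nex (f + t.1 f) f) (by
    change eich S (f + t.1 f) f * t * _ = t
    have := conj_eich t (f + t.1 f) f
    rw [fix_mv (F.tt1 g), ← eich_add_smul s (a := t.1 f) (by rw [← b, ← B_map t _ f, fix_mv (F.tt1 g)]) 1, one_smul,
      add_left_comm, W_add, add_zero] at this
    rw [mul_inv_eq_iff_eq_mul, mul_inv_eq_iff_eq_mul.1 this])
  have k : ∀ c, t.1 c = c → (μ h).1 c = c + B f c • (f + t.1 f) := fun c hc => by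
    rw [e, eich_apply_of_perp s b ((B_comm _ _).trans (B_fix hc f))]
  have kv := k v (hw ▸ fix_mv (F.tt1 g) w)
  rw [B_comm, show B v f = 1 from hf, one_smul] at kv
  refine ⟨h, c, fun r => ?_, fun c hc => ?_⟩
  · rw [kv, add_eq_left] at r
    have := h1 f (eq_of_add r)
    rw [B_comm, show B v f = 1 from hf] at this; cases this
  · rw [k c hc, kv, ← add_assoc v, W_add, zero_add]
    rcases z2 (B f c) with r | r <;> simp [r]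

variable (F' : Fr u P p' μ') (w' : WC u P)
include F' w'

theorem zP : z ∉ P := fun h => g.ne (w' z h g.cj.symm).symm

theorem injD (hx : x ∈ Q ⊓ P) (hy : y ∈ Q ⊓ P) (e : p x = p y) : y = x :=
  ((F.eq_iff hx.1 hy.1).1 e).resolve_right fun e => F.zP g F' w' ((P.mul_mem_cancel_left hx.2).1 (e ▸ hy.2))

theorem conjD {h : G} (h1 : Commute h z) (h2 : Commute h u) (hx : x ∈ Q ⊓ P) : h * x * h⁻¹ ∈ Q ⊓ P :=
  ⟨F.conj ⟨h, mem_cent1.2 h1⟩ hx.1, F'.conj ⟨h, mem_cent1.2 h2⟩ hx.2⟩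

theorem cD (hx : x ∈ Q ⊓ P) (ha : a ∈ Q) (c : Commute a u) : Commute a x :=
  cj_eq_iff_comm.1 (F.injD g F' w' hx (F.conjD g F' w' (F.es.zc a ha) c hx) (by
    rw [F.add (mul_mem ha hx.1) (inv_mem ha), F.add ha hx.1, F.inv ha, add_right_comm, W_add, zero_add]))

/-- A transvection on `D = Q ∩ P`. -/
theorem trvD (hd : d ∈ Q ⊓ P) (d1 : d ≠ 1) : ∃ h, Commute h z ∧ Commute h u ∧ h * d * h⁻¹ ≠ d ∧
    ∀ a ∈ Q, Commute a u → ∃ k, (k = 1 ∨ k = d⁻¹ * (h * d * h⁻¹)) ∧ (h * a * h⁻¹ = a * k ∨ h * a * h⁻¹ = a * k * z) := by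
  obtain ⟨h, c, n, k⟩ := F.trv g (v := p d) (fun e => d1 (F.injD g F' w' (one_mem _) hd (F.p1.trans e.symm)))
    fun v hv => by
      obtain ⟨a, ha, rfl⟩ := F.surj v
      exact (F.comm ha hd.1).2 (F.cD g F' w' hd ha ((F.gfix g ha).1 hv).symm)
  refine ⟨h, mem_cent1.1 h.2, c, fun e => n (by rw [← F.act h d hd.1, e]), fun a ha ca => ?_⟩
  have m := Q.mul_mem (inv_mem hd.1) (F.conj h hd.1)
  rcases k _ ((F.gfix g ha).2 ca.symm) with e | e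
  · exact ⟨1, .inl rfl, by rw [mul_one]; exact (F.eq_iff ha (F.conj h ha)).1 (by rw [F.act h a ha, e])⟩
  · exact ⟨_, .inr rfl, (F.eq_iff (mul_mem ha m) (F.conj h ha)).1 (by
      rw [F.act h a ha, e, F.add ha m, F.add (inv_mem hd.1) (F.conj h hd.1), F.inv hd.1, F.act h d hd.1])⟩

variable (w : WC z Q)
include w

theorem commA (ha : a ∈ Q) (ca : Commute a u) (hb : b ∈ P) (cb : Commute b z) : Commute a b := by
  have D : ∀ {a b}, a ∈ Q → Commute a u → b ∈ P → Commute b z → a * b * a⁻¹ * b⁻¹ ∈ Q ⊓ P := fun {a b} ha ca hb cb =>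
    mem_inf.2 ⟨by simpa only [mul_assoc] using Q.mul_mem ha (F.conj ⟨b, mem_cent1.2 cb⟩ (inv_mem ha)),
      mul_mem (F'.conj ⟨a, mem_cent1.2 ca⟩ hb) (inv_mem hb)⟩
  have cP : ∀ {x b}, x ∈ Q ⊓ P → b ∈ P → Commute b z → Commute b x := fun hx hb cb =>
    F'.cD g.symm F w ⟨hx.2, hx.1⟩ hb cb
  have K : ∀ {a a' b k : G}, Commute k b → a' = a * k → a' * b * a'⁻¹ * b⁻¹ = a * b * a⁻¹ * b⁻¹ :=
    fun {a _ b _} c e => by rw [e, mul_inv_rev, mul_assoc a _ b, c.eq]; group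
  by_contra n
  obtain ⟨h, h1, h2, h3, h4⟩ := F.trvD g F' w' (D ha ca hb cb) fun e => n (commutatorElement_eq_one_iff_commute.1 e)
  set d := a * b * a⁻¹ * b⁻¹
  have hd : d ∈ Q ⊓ P := D ha ca hb cb
  have he : d⁻¹ * (h * d * h⁻¹) ∈ Q ⊓ P := mul_mem (inv_mem hd) (F.conjD g F' w' h1 h2 hd)
  set e := d⁻¹ * (h * d * h⁻¹)
  have hb' := F'.conj ⟨h, mem_cent1.2 h2⟩ hb
  have cb' : Commute (h * b * h⁻¹) z := (h1.mul_left cb).mul_left h1.inv_left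
  have m : ∀ a ∈ Q, Commute a u → a * (b⁻¹ * (h * b * h⁻¹)) * a⁻¹ * (b⁻¹ * (h * b * h⁻¹))⁻¹ =
      (a * b * a⁻¹ * b⁻¹)⁻¹ * (h * (a * b * a⁻¹ * b⁻¹) * h⁻¹) := fun a ha ca => by
    obtain ⟨k, k1, k2⟩ := h4 a ha ca
    have ck : Commute k (h * b * h⁻¹) := by
      rcases k1 with rfl | rfl
      exacts [Commute.one_left _, (cP he hb' cb').symm]
    have : h * a * h⁻¹ * (h * b * h⁻¹) * (h * a * h⁻¹)⁻¹ * (h * b * h⁻¹)⁻¹ = a * (h * b * h⁻¹) * a⁻¹ * (h * b * h⁻¹)⁻¹ :=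
      k2.elim (K ck) fun e => K (ck.mul_left cb'.symm) (e.trans (mul_assoc _ _ _))
    rw [show h * (a * b * a⁻¹ * b⁻¹) * h⁻¹ = h * a * h⁻¹ * (h * b * h⁻¹) * (h * a * h⁻¹)⁻¹ * (h * b * h⁻¹)⁻¹ by group, this]
    have c1 := cP (D ha ca hb' cb') hb cb
    have c2 := cP (D ha ca hb cb) hb cb
    generalize h * b * h⁻¹ = c at *
    calc _ = b⁻¹ * (a * b * a⁻¹ * b⁻¹)⁻¹ * (a * c * a⁻¹ * c⁻¹ * b) := by group
      _ = b⁻¹ * ((a * b * a⁻¹ * b⁻¹)⁻¹ * b) * (a * c * a⁻¹ * c⁻¹) := by rw [← c1.eq]; group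
      _ = _ := by rw [← c2.inv_right.eq, inv_mul_cancel_left]
  have e1 : e ≠ 1 := fun r => h3 (inv_mul_eq_one.1 r).symm
  obtain ⟨h', i1, i2, i3, i4⟩ := F'.trvD g.symm F w ⟨he.2, he.1⟩ e1
  have hc := P.mul_mem (inv_mem hb) hb'
  have cc : Commute (b⁻¹ * (h * b * h⁻¹)) z := cb.inv_left.mul_left cb'
  set c := b⁻¹ * (h * b * h⁻¹)
  obtain ⟨k, k1, k2⟩ := i4 c hc cc
  have ha' := F.conj ⟨h', mem_cent1.2 i2⟩ ha
  have ca' : Commute (h' * a * h'⁻¹) u := (i1.mul_left ca).mul_left i1.inv_left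
  have ck : Commute k (h' * a * h'⁻¹) := by
    rcases k1 with rfl | rfl
    exacts [Commute.one_left _, (F.cD g F' w' (mul_mem (inv_mem he) (F.conjD g F' w' i2 i1 he)) ha' ca').symm]
  have r : h' * e * h'⁻¹ = h' * a * h'⁻¹ * c * (h' * a * h'⁻¹)⁻¹ * c⁻¹ := by
    rw [← inv_inj, show e = a * c * a⁻¹ * c⁻¹ from (m a ha ca).symm, show (h' * (a * c * a⁻¹ * c⁻¹) * h'⁻¹)⁻¹ =
      h' * c * h'⁻¹ * (h' * a * h'⁻¹) * (h' * c * h'⁻¹)⁻¹ * (h' * a * h'⁻¹)⁻¹ by group,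
      k2.elim (K ck) fun e => K (ck.mul_left ca'.symm) (e.trans (mul_assoc _ _ _))]
    group
  have hx := D ha' ca' hb cb
  rw [m _ ha' ca'] at r
  obtain ⟨l, l1, l2⟩ := h4 _ hx.1 (F'.es.zc _ hx.2)
  have hl : l ∈ Q ⊓ P := by rcases l1 with rfl | rfl; exacts [one_mem _, he]
  rw [l2.resolve_right fun s => F.zP g F' w' ((P.mul_mem_cancel_left (mul_mem hx.2 hl.2)).1
    (s ▸ (F.conjD g F' w' h1 h2 hx).2)), inv_mul_cancel_left] at r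
  rcases l1 with rfl | rfl
  exacts [e1 (conj_eq_one_iff.1 r), i3 r]

theorem fixA (ha : a ∈ Q) (ca : Commute a u) (c : W) (hc : (μ' ⟨z, g.symm.cm⟩).1 c = c) :
    (μ' ⟨a, mem_cent1.2 ca⟩).1 c = c := by
  obtain ⟨b, hb, rfl⟩ := F'.surj c
  rw [← F'.act _ b hb, cj_eq_iff_comm.2 (F.commA g F' w' w ha ca hb ((F'.gfix g.symm hb).1 hc).symm)]

theorem mvA (ha : a ∈ Q) (ca : Commute a u) (v : W) :
    (μ' ⟨z, g.symm.cm⟩).1 (v + (μ' ⟨a, mem_cent1.2 ca⟩).1 v) = v + (μ' ⟨a, mem_cent1.2 ca⟩).1 v := by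
  obtain ⟨x, e⟩ := perp_fix (μ' ⟨z, g.symm.cm⟩) fun c hc => B_fix (F.fixA g F' w' w ha ca c hc) v
  rw [← e, fix_mv (F'.tt1 g.symm)]

theorem sqA (ha : a ∈ Q) (ca : Commute a u) : a * a = 1 := (F.es.sq a ha).resolve_right fun e => by
  refine F.zP g F' w' (e ▸ (F'.ker (⟨a, mem_cent1.2 ca⟩ * ⟨a, mem_cent1.2 ca⟩)).1 (OG.ext fun v => ?_))
  have := F.fixA g F' w' w ha ca _ (F.mvA g F' w' w ha ca v)
  rw [map_add, add_comm v, add_right_inj] at this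
  rw [map_mul]; exact this

omit F' w' in
theorem ts {c : W} (hc : (μ ⟨u, g.cm⟩).1 c = c) : S c = 0 := by
  obtain ⟨P, p', μ', F', w'⟩ := F.move w g.cj
  obtain ⟨a, ha, rfl⟩ := F.surj c
  exact (F.sq ha).2 (F.sqA g F' w' w ha ((F.gfix g ha).1 hc).symm)

omit F' w' in
theorem tsB {c v : W} (hc : (μ ⟨u, g.cm⟩).1 c = c) (hv : (μ ⟨u, g.cm⟩).1 v = v) : B c v = 0 := by
  have := F.ts g w (c := c + v) (by rw [map_add, hc, hv])
  rwa [S_add, F.ts g w hc, F.ts g w hv, zero_add, zero_add] at this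

omit F' w' in
theorem basis : ∃ b : Fin 4 → W, (∀ c : Fin 4 → ZMod 2, ∑ i, c i • b i ∈ LinearMap.eqLocus (μ ⟨u, g.cm⟩).1.toLinearMap .id
    → c = 0) ∧ ∀ v, ∃ c : Fin 4 → ZMod 2, v + ∑ i, c i • b i ∈ LinearMap.eqLocus (μ ⟨u, g.cm⟩).1.toLinearMap .id :=
  ex_basis fun v => ⟨fun hv c hc => F.tsB g w hc hv, fun h => by
    obtain ⟨x, rfl⟩ := perp_fix _ h
    exact fix_mv (F.tt1 g) x⟩

omit g w' w in
theorem gd_of (w' : WC u P) (c : IsConj z u) (m : z ∈ C1[u]) (hy : y ∈ P) (h0 : p' y + (μ' ⟨z, m⟩).1 (p' y) ≠ 0)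
    (h1 : B (p' y) ((μ' ⟨z, m⟩).1 (p' y)) = 0) : Gd z (y * z * y⁻¹) := by
  have n := P.mul_mem (F'.conj ⟨z, m⟩ hy) (inv_mem hy)
  have i := inv_eq_of_mul_eq_one_right F.es.zz
  rw [← S_mv, ← F'.p_mv _ hy, F'.sq n] at h1
  rw [← F'.p_mv _ hy, Ne, F'.p0 n, not_or] at h0
  have k : y * z * y⁻¹ * z = z * y * z⁻¹ * y⁻¹ := by rw [← inv_eq_of_mul_eq_one_right h1]; simp [i, mul_assoc]
  refine ⟨isConj_iff.2 ⟨y, rfl⟩, mem_cent1.2 (by rw [k, i]; simp only [mul_assoc]), fun e => h0.1 ?_, fun e => h0.2 ?_⟩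
  · rw [← k, e, F.es.zz]
  · exact w' _ n (c.symm.trans (k ▸ e))

omit F' w' in
theorem not_gd : False := by
  obtain ⟨P, p', μ', F', w'⟩ := F.move w g.cj
  obtain ⟨b, b1, b2⟩ := F.basis g w
  obtain ⟨b', b3, -⟩ := F'.basis g.symm w'
  choose Y hY eY using fun i => F'.surj (b' i)
  let k : C1[u] := ⟨z, g.symm.cm⟩
  have i := inv_eq_of_mul_eq_one_right F.es.zz
  have n : ∀ y : P, z * y * z⁻¹ * y.1⁻¹ ∈ P := fun y => P.mul_mem (F'.conj k y.2) (inv_mem y.2)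
  have cz : ∀ y : P, Commute (z * y * z⁻¹ * y.1⁻¹) z := fun y =>
    ((F'.gfix g.symm (n y)).1 (by rw [F'.p_mv k y.2, fix_mv (F'.tt1 g.symm)])).symm
  let σ : P → C1[z] := fun y => ⟨_, mem_cent1.2 (cz y)⟩
  have fx := fun y : P => F'.fixA g.symm F w w' (n y) (cz y)
  have mv := fun y : P => F'.mvA g.symm F w w' (n y) (cz y)
  have := deg3 (ρ := fun y => am b (μ (σ y))) (β := fun x y : P => B (p' x) (p' y + (μ' k).1 (p' y)))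
    (ω := am b (μ ⟨u, g.cm⟩)) (fun x y => ?_) (fun x y t => by rw [coe_mul, F'.add x.2 y.2, B_add'])
    ⟨_, hY 0⟩ ⟨_, hY 1⟩ ⟨_, hY 2⟩ ⟨_, hY 3⟩
  · have o : ∀ (y : P) (c : Fin 4 → ZMod 2), c ≠ 0 → p' y = ∑ i, c i • b' i → pf (am b (μ (σ y))) = 1 := fun y c c0 e => by
      have g' := F.gd_of F' w' g.cj k.2 y.2 (fun r => c0 (b3 c (e ▸ eq_of_add r))) (F'.aty g.symm _)
      have s : μ (σ y) = μ ⟨_, g'.cm⟩ := by
        rw [show σ y = ⟨z, cent1_self z⟩ * ⟨_, g'.cm⟩ from Subtype.ext (by simp [σ, i, mul_assoc]), map_mul,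
          (F.ker _).2 F.es.zQ, one_mul]
      refine pf_one b1 b2 (fun v => ⟨fun hv => ?_, fx y v⟩) (s ▸ F.aty g')
      obtain ⟨x, rfl⟩ := perp_fix (μ ⟨u, g.cm⟩) fun c hc => F.tsB g' w (s ▸ fx y c hc) (s ▸ hv)
      exact fix_mv (F.tt1 g) x
    rw [o _ ![1,0,0,0], o _ ![0,1,0,0], o _ ![0,0,1,0], o _ ![0,0,0,1], o _ ![1,1,0,0], o _ ![1,0,1,0], o _ ![1,0,0,1],
      o _ ![0,1,1,0], o _ ![0,1,0,1], o _ ![0,0,1,1], o _ ![1,1,1,0], o _ ![1,1,0,1], o _ ![1,0,1,1], o _ ![0,1,1,1],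
      o _ ![1,1,1,1]] at this
    · cases this
    all_goals first | decide | simp [Fin.sum_univ_four, F'.add, mul_mem, hY, eY,
      F'.add (mul_mem (mul_mem (hY 0) (hY 1)) (hY 2)) (hY 3)]
  · have e : (σ (x * y)).1 = σ x * (x * σ y * x.1⁻¹) := by
      show z * (x * y) * z⁻¹ * (x * y : G)⁻¹ = z * x * z⁻¹ * x.1⁻¹ * (x * (z * y * z⁻¹ * y.1⁻¹) * x.1⁻¹)
      group
    rw [← F'.p_mv k y.2]
    by_cases c : Commute x.1 (σ y)
    · rw [(F'.comm x.2 (n y)).2 c, zero_smul, add_zero, ← am_mul b fun v => fx x _ (mv y v), ← map_mul]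
      exact congrArg (fun t => am b (μ t)) (Subtype.ext (by rw [e, cj_eq_iff_comm.2 c]; rfl))
    · rw [z2_ne (mt (F'.comm x.2 (n y)).1 c), one_smul, add_assoc, ← am_mul b fun v => fx y _ (fix_mv (F.tt1 g) v),
        ← am_mul b fun v => fx x _ (by
          rw [OG.mul_apply, show v + (μ (σ y)).1 ((μ ⟨u, g.cm⟩).1 v) = v + (μ ⟨u, g.cm⟩).1 v +
            ((μ ⟨u, g.cm⟩).1 v + (μ (σ y)).1 ((μ ⟨u, g.cm⟩).1 v)) by rw [add_assoc, ← add_assoc _ _ ((μ (σ y)).1 _), W_add,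
              zero_add], map_add, mv, fix_mv (F.tt1 g)]), ← map_mul, ← map_mul]
      exact congrArg (fun t => am b (μ t)) (Subtype.ext (by rw [e, F'.es.conj_of_not x.2 (n y) c]; rfl))

end Fr

theorem Fr.ex_fused (F : Fr z Q p μ) (h : ¬ IsIsolatedInvolution z) : ∃ u ∈ Q, IsConj z u ∧ u ≠ z := by
  by_contra H
  have w : WC z Q := fun x hx c => by_contra fun n => H ⟨x, hx, c, n⟩
  refine h ⟨F.es.z2, fun g c => by_contra fun n => ?_⟩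
  have cj : IsConj z (g * z * g⁻¹) := isConj_iff.2 ⟨g, rfl⟩
  obtain ⟨P, p', μ', F', w'⟩ := F.move w cj
  have m : z ∈ C1[g * z * g⁻¹] := mem_cent1.2 c
  obtain ⟨v, v0, v1⟩ := ex_sing (F'.mem ⟨z, m⟩) (fun e => n (w' z ((F'.ker _).1 e) cj.symm).symm) (by
    rw [← map_mul, show (⟨z, m⟩ * ⟨z, m⟩ : C1[g * z * g⁻¹]) = 1 from Subtype.ext F.es.zz, map_one])
  obtain ⟨y, hy, rfl⟩ := F'.surj v
  exact F.not_gd (F.gd_of F' w' cj m hy v0 v1) w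

end Cfsg.Agent.Co1A
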