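import Cfsg.Agent.Co1R.P
import Cfsg.Agent.Co1T.CT

/-! Simple sections `C(a)/⟨a⟩` of groups of Conway type (`simple_set`, `simple_sec`) and of `Co₀` (`section0`). -/

set_option autoImplicit false
set_option synthInstance.maxSize 4096

namespace Cfsg.Agent.Co1R

open Subgroup Cfsg.Agent.BG Cfsg.Agent.LES Cfsg.Agent.Co1A Cfsg.Agent.Mon Cfsg.Agent.Leech Cfsg.Agent.Co1T Cfsg.Agent.Geom

variable {G : Type*} [Group G] [Finite G] {z a : G}

theorem simple_set {Q : Subgroup C1[z]} [Q.Normal] {w : ℕ} (hs : IsExtraspecialCentralizerSetting z Q w) (hw : 2 ≤ w)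
    [IsSimpleGroup (C1[z] ⧸ Q)] (hM : Q.map C1[z].subtype ≤ normalClosure {z}) :
    IsSimpleGroup G ∧ ¬ IsMulCommutative G := by
  obtain ⟨h, hO⟩ := LE.of_fstar hs.1 (congrArg (map C1[z].subtype) hs.2.1)
    (PGrp.ES_of_mulEquiv hs.2.2.1 (equivMapOfInjective Q _ C1[z].subtype_injective))
  have h8 : 8 < #(Q.map C1[z].subtype) := by
    rw [(setting_LE hs).2]
    exact lt_of_lt_of_le (by norm_num) (Nat.pow_le_pow_right two_pos (show 5 ≤ 2 * w + 1 by omega))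
  obtain ⟨g, ⟨hq, hg⟩, hne⟩ := hs.2.2.2.2
  have h1 : g * z * g⁻¹ ∈ Q.map C1[z].subtype := ⟨_, hg, rfl⟩
  refine ⟨LES.simple_of (h.large_of_conj h1 hne (h.sym h8 h1)) h hO fun x hx => ?_,
    fun c => let ⟨a, _, b, _, n⟩ := h.nab; n (c.is_comm.comm a b)⟩
  have P := h.pair h8 h1 hne
  rcases ((normalClosure_normal (s := {z})).comap C1[z].subtype |>.map _
    (QuotientGroup.mk'_surjective Q)).eq_bot_or_eq_top with e | e
  · rw [Subgroup.map_eq_bot_iff, QuotientGroup.ker_mk'] at e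
    obtain ⟨a, ha, b, hb, c1, c2, n⟩ := P.hP.nab_cent (by rwa [card_cj]) P.zP
    have k : ∀ a ∈ cj g (Q.map C1[z].subtype), Commute a z → a ∈ Q.map C1[z].subtype := fun _ ⟨b, hb, f⟩ c =>
      ⟨⟨_, mem_cent1.2 c⟩, e (f ▸ normalClosure_normal.conj_mem _ (hM hb) g), rfl⟩
    have := (h.conj_of_not (k a ha c1) (k b hb c2) n).symm.trans (P.hP.conj_of_not ha hb n)
    exact absurd (mul_left_cancel this).symm hne
  · have := comap_map_eq (QuotientGroup.mk' Q) ((normalClosure {z}).comap C1[z].subtype)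
    rw [e, comap_top, QuotientGroup.ker_mk', sup_eq_left.2 (map_le_iff_le_comap.1 hM)] at this
    exact this.le (mem_top ⟨x, hx⟩)

theorem simple_sec {Q : Subgroup G} {p : G → W} {μ : C1[z] →* O8} {m r : ℕ} {ι : Vm m →ₗ[ZMod 2] W}
    {π : W →ₗ[ZMod 2] Vm m} {α : O8} {v0 : W} (F : Fr z Q p μ) (h : Std r ι π α v0) (ha : a ∈ C1[z])
    (e : μ ⟨a, ha⟩ = α) (hp : r.Prime) (p2 : r ≠ 2) (ho : orderOf a = r) (hf : ∃ u ∈ Q, IsConj z u ∧ u ≠ z)
    [IsSimpleGroup (Lm m)] (h3 : 3 ∣ Nat.card (Lm m)) (m0 : m ≠ 0) (hs : ∀ v, ∃ u, qm m u = 0 ∧ qm m (u + v) = 0)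
    [((zpowers a).subgroupOf C[zpowers a]).Normal] :
    IsSimpleGroup (C[zpowers a] ⧸ (zpowers a).subgroupOf C[zpowers a]) ∧
      ¬ IsMulCommutative (C[zpowers a] ⧸ (zpowers a).subgroupOf C[zpowers a]) := by
  obtain ⟨zD, _, h1, ⟨f⟩⟩ := setting F h ha e hp p2 ho hf h3 m0
  obtain ⟨l⟩ := omega_m m
  have := (f.trans l.symm).isSimpleGroup
  have z1 : zb C[zpowers a] (zpowers a) zD ∈ normalClosure {_} := subset_normalClosure rfl
  have k : ∀ q (hq : q ∈ Q ⊓ C[zpowers a]), S (p q) = 0 →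
      QuotientGroup.mk ⟨q, hq.2⟩ ∈ normalClosure {zb C[zpowers a] (zpowers a) zD} := fun q hq s => by
    by_cases q0 : p q = 0
    · rcases (F.p0 hq.1).1 q0 with rfl | rfl
      exacts [one_mem _, z1]
    obtain ⟨x, rfl⟩ := isConj_iff.1 (F.fused hf hq.1 s q0)
    obtain ⟨d, h3, h4⟩ := Pair.nwc_odd (F.le.pair (by rw [F.card]; decide) hq.1 fun e => q0 (by rw [e, F.pz])) hp p2
      (ho ▸ pow_orderOf_eq_one a) (mem_cent1.1 ha) (mem_CB.1 hq.2)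
    exact (congrArg QuotientGroup.mk (Subtype.ext h4 : ⟨d, mem_CB.2 h3⟩ * ⟨z, zD⟩ * ⟨d, _⟩⁻¹ = (⟨_, hq.2⟩ : C[zpowers a]))) ▸
      normalClosure_normal.conj_mem _ z1 (QuotientGroup.mk ⟨d, mem_CB.2 h3⟩)
  refine simple_set h1 (by omega) ?_
  rintro _ ⟨_, ⟨⟨q, q'⟩, hq : q ∈ Q ⊓ C[zpowers a], rfl⟩, rfl⟩
  have f := (h.fix _).1 (e ▸ (fix_iff F (ho ▸ hp.odd_of_ne_two p2) ha hq.1).2 (mem_CB.1 hq.2))
  obtain ⟨u, h1, h2⟩ := hs (π (p q))
  obtain ⟨x, hx, g⟩ := ex_ι F h ha e hp p2 ho u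
  have := mul_mem (k x hx (by rw [g, h.q, h1])) (k (x⁻¹ * q) (mul_mem (inv_mem hx) hq)
    (by rw [F.add (inv_mem hx.1) hq.1, F.inv hx.1, g, ← f, ← map_add, h.q, h2]))
  rwa [← QuotientGroup.mk_mul, show (⟨x, _⟩ * ⟨_, _⟩ : C[zpowers a]) = ⟨q, hq.2⟩ from
    Subtype.ext (mul_inv_cancel_left x q)] at this

theorem lift_sec {a : CC} {r : ℕ} (hp : r.Prime) (p2 : r ≠ 2) (ho : orderOf a = r)
    [((zpowers a).subgroupOf C[zpowers a]).Normal] : ∃ A : Subgroup CG, #A = r ∧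
      ∃ _ : ((A ⊔ center CG).subgroupOf C[A]).Normal, Nonempty ((C[zpowers a] ⧸ (zpowers a).subgroupOf C[zpowers a]) ≃*
        C[A] ⧸ (A ⊔ center CG).subgroupOf C[A]) := by
  have : Fact r.Prime := ⟨hp⟩
  have n : ∀ g : CG, (g * negC) ^ r = g ^ r * negC := fun g => by
    obtain ⟨n, rfl⟩ := hp.odd_of_ne_two p2
    rw [Commute.mul_pow (negC_comm g), pow_succ negC, pow_mul negC, pow_two negC, negC_sq, one_pow, one_mul]
  obtain ⟨b, rfl, hb⟩ : ∃ b, mk1 b = a ∧ b ^ r = 1 := by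
    obtain ⟨g, rfl⟩ := mk1_surj a
    rcases mk1_eq_one.1 (show mk1 (g ^ r) = 1 by rw [map_pow, ← ho, pow_orderOf_eq_one]) with e | e
    exacts [⟨g, rfl, e⟩, ⟨g * negC, by rw [map_mul, mk1_neg, mul_one], by rw [n, e, negC_sq]⟩]
  let φ : C[zpowers b] →* C[zpowers (mk1 b)] := (mk1.comp (Subgroup.subtype _)).codRestrict _ fun g =>
    mem_CB.2 ((mem_CB.1 g.2).map mk1)
  have su : Function.Surjective φ := fun ⟨x, hx⟩ => by
    obtain ⟨g, rfl⟩ := mk1_surj x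
    refine ⟨⟨g, mem_CB.2 (cj_eq_iff_comm.1 (((mk1_eq (k := g * b * g⁻¹) (g := b)).1 ?_).resolve_right fun e => ?_)).symm⟩, rfl⟩
    · rw [map_mul, map_mul, map_inv, cj_eq_iff_comm.2 (mem_CB.1 hx).symm]
    · exact negC_ne (by rw [← one_mul negC, ← hb, ← n, ← e, conj_pow, hb]; simp)
  have e : ((QuotientGroup.mk' ((zpowers (mk1 b)).subgroupOf _)).comp φ).ker =
      (zpowers b ⊔ center CG).subgroupOf C[zpowers b] := Subgroup.ext fun g => by
    rw [mem_subgroupOf, show zpowers b ⊔ center CG = (zpowers (mk1 b)).comap mk1 by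
      rw [← MonoidHom.map_zpowers, comap_map_eq]; exact congrArg _ (QuotientGroup.ker_mk' _).symm]
    exact QuotientGroup.eq_one_iff _
  have : ((zpowers b ⊔ center CG).subgroupOf C[zpowers b]).Normal := e ▸ MonoidHom.normal_ker _
  exact ⟨zpowers b, (Nat.card_zpowers b).trans (orderOf_eq_prime hb fun f => hp.ne_one (by simp [← ho, f])),
    this, ⟨((QuotientGroup.quotientMulEquivOfEq e.symm).trans
      (QuotientGroup.quotientKerEquivOfSurjective _ ((QuotientGroup.mk'_surjective _).comp su))).symm⟩⟩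

theorem section0 {m r : ℕ} {ι : Vm m →ₗ[ZMod 2] W} {π : W →ₗ[ZMod 2] Vm m} {α : O8} {v0 : W} (h : Std r ι π α v0)
    (hp : r.Prime) (p2 : r ≠ 2) {k : ℕ} (hk : 4 * k % r = 1) [IsSimpleGroup (Lm m)] (h3 : 3 ∣ Nat.card (Lm m)) (m0 : m ≠ 0)
    (hs : ∀ v, ∃ u, qm m u = 0 ∧ qm m (u + v) = 0) : ∃ A : Subgroup CG, #A = r ∧
      ∃ _ : ((A ⊔ center CG).subgroupOf C[A]).Normal, ∃ (S : Type) (_ : Group S) (_ : Finite S),
        Nonempty (S ≃* C[A] ⧸ (A ⊔ center CG).subgroupOf C[A]) ∧ IsSimpleGroup S ∧ ¬ IsMulCommutative S ∧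
        ∃ (z : S) (Q : Subgroup C1[z]) (_ : Q.Normal), IsExtraspecialCentralizerSetting z Q (m + 1) ∧
          Nonempty (C1[z] ⧸ Q ≃* Omega (ZMod 2) (quadFormMinus m (ZMod 2) 1 1)) := by
  have := Q1_normal
  obtain ⟨⟨p, μ, F⟩, hf⟩ := fr_of ⟨ord_z0, fstar_H0, Q1_es, card_Q1, nwc_H0⟩ quot_H0.some
  obtain ⟨a, ha, ho, e⟩ := ex_std F h hp hk
  have : ((zpowers a).subgroupOf C[zpowers a]).Normal := normal_subgroupOf_of_le_normalizer (centralizer_le_normalizer _)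
  obtain ⟨A, h1, _, h2⟩ := lift_sec hp p2 ho
  obtain ⟨zD, _, h4⟩ := setting F h ha e hp p2 ho hf h3 m0
  have := simple_sec F h ha e hp p2 ho hf h3 m0 hs
  exact ⟨A, h1, _, _, _, inferInstance, h2, this.1, this.2, _, _, _, h4⟩

theorem sing1 : ∀ v, ∃ u, qm 1 u = 0 ∧ qm 1 (u + v) = 0 := by simp only [quadMinus_apply]; decide +kernel

theorem sing2 : ∀ v, ∃ u, qm 2 u = 0 ∧ qm 2 (u + v) = 0 := by simp only [quadMinus_apply]; decide +kernel

end Cfsg.Agent.Co1R
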