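import Cfsg.Agent.Co1T.M2
import Cfsg.Agent.Co1T.Bc

/-! Step B of the recognition of `Co₁`: the normaliser of `V = 2¹¹` induces `M₂₄` on `V` (`ind_all`, `ind_norm`). -/

set_option autoImplicit false
set_option linter.unusedSectionVars false

namespace Cfsg.Agent.Co1T

open Subgroup Cfsg.Agent.BG Cfsg.Agent.LES Cfsg.Agent.Co1A

variable {G : Type*} [Group G] [Finite G] {z n n' : G} {φ : H0 →* G} {k k' : CC}

/-- `n` induces on `φ V₀` the action of `k`. -/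
def Ind (φ : H0 →* G) (k : CC) (n : G) : Prop :=
  ∀ v w : H0, (v : CC) ∈ V0 → (w : CC) = k * v * k⁻¹ → n * φ v * n⁻¹ = φ w

noncomputable abbrev VV (φ : H0 →* G) : Subgroup G := (V0.subgroupOf H0).map φ

/-- The element of `H0` given by an element of `V0`. -/
abbrev iV {v : CC} (hv : v ∈ V0) : H0 := ⟨v, V0_le_H0 hv⟩

theorem Ind.of (h : H0) : Ind φ h (φ h) := fun v w _ e => by
  rw [show w = h * v * h⁻¹ from Subtype.ext e, map_mul, map_mul, map_inv]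

theorem Ind.mul (h : Ind φ k n) (h' : Ind φ k' n') (hk : k' ∈ N0) : Ind φ (k * k') (n * n') := fun v w hv e => by
  rw [← h (iV (V0_conj hk hv)) w (V0_conj hk hv) (by rw [e]; group), ← h' v (iV (V0_conj hk hv)) hv rfl]; group

theorem Ind.inv (h : Ind φ k n) (hk : k ∈ N0) : Ind φ k⁻¹ n⁻¹ := fun v w hv e => by
  rw [← h w v (e ▸ V0_conj (N0.inv_mem hk) hv) (by rw [e]; group)]; group

theorem Ind.pow (h : Ind φ k n) (hk : k ∈ N0) (m : ℕ) : Ind φ (k ^ m) (n ^ m) := by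
  induction m with
  | zero => simpa using Ind.of (φ := φ) 1
  | succ m ih => rw [pow_succ, pow_succ]; exact ih.mul h hk

theorem Ind.norm (h : Ind φ k n) (hk : k ∈ N0) : n ∈ N[VV φ] := mem_norm_of_cj_le (by
  rintro _ ⟨_, ⟨v, hv, rfl⟩, rfl⟩
  exact ⟨iV (V0_conj hk hv), V0_conj hk hv, (h v _ hv rfl).symm⟩)

theorem mem_VV (hφ : Function.Injective φ) {h : H0} : φ h ∈ VV φ ↔ h.1 ∈ V0 := mem_map_iff_mem hφ

theorem N0_of (hφ : Function.Injective φ) {h : H0} (hn : φ h ∈ N[VV φ]) : h.1 ∈ N0 := by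
  rw [← norm_V0]
  refine mem_norm_of_cj_le ?_
  rintro _ ⟨v, hv, rfl⟩
  have := (mem_normalizer_iff.1 hn _).1 ((mem_VV hφ (h := iV hv)).2 hv)
  rw [← map_inv, ← map_mul, ← map_mul, mem_VV hφ] at this
  exact this

theorem card_VV (hφ : Function.Injective φ) : #(VV φ) = #V0 := by
  rw [card_map_of_injective hφ, Nat.card_congr (subgroupOfEquivOfLe V0_le_H0).toEquiv]

theorem VV_sq : ∀ v ∈ VV φ, v * v = 1 := fun _ ⟨a, ha, e⟩ => by
  rw [← e, ← map_mul, show a * a = 1 from Subtype.ext (V0_sq ha), map_one]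

variable (hφ : Function.Injective φ) (hC : φ.range = C1[z]) (hz : φ ⟨z0, z0_mem⟩ = z)
include hφ hC hz

theorem ex_pre {x : G} (h : Commute x z) : ∃ y, φ y = x := (hC ▸ mem_cent1.2 h : x ∈ φ.range)

theorem ex_swap (h : ∃ n, n * z * n⁻¹ = φ (iV u0_V) ∧ n * φ (iV u0_V) * n⁻¹ = z) :
    ∃ n ∈ N[VV φ], n * z * n⁻¹ = φ (iV u0_V) ∧ n * φ (iV u0_V) * n⁻¹ = z := by
  obtain ⟨n, h1, h2⟩ := h
  have cz : ∀ a ∈ cj n (VV φ), Commute a z ∧ Commute a (φ (iV u0_V)) := by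
    rintro _ ⟨_, ⟨v, hv, rfl⟩, rfl⟩
    constructor
    · rw [← h2]; exact ((show Commute v (iV u0_V) from Subtype.ext (V0_comm hv u0_V)).map φ).conj n
    · rw [← h1, ← hz]; exact ((show Commute v ⟨z0, z0_mem⟩ from Subtype.ext (V0_comm hv z0_V)).map φ).conj n
  have le : cj n (VV φ) ≤ φ.range := fun a ha => ex_pre hφ hC hz (cz a ha).1
  obtain ⟨c, hc, e⟩ := weak_in (A := ((cj n (VV φ)).comap φ).map H0.subtype) odd_NHu
    (by
      rintro _ ⟨a, ha, rfl⟩ x (rfl | rfl)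
      · exact (mem_cent1.1 a.2).symm
      · exact congrArg Subtype.val (hφ (by simpa only [map_mul] using (cz _ ha).2.symm.eq) : iV u0_V * a = a * iV u0_V))
    (by
      rintro _ ⟨a, ⟨b, hb, e⟩, rfl⟩
      exact congrArg Subtype.val (hφ (by rw [map_mul, ← e, ← map_mul, VV_sq b hb, map_one, map_one]) : a * a = 1))
    (by rw [card_map_of_injective (subtype_injective _), ← card_map_of_injective hφ, map_comap_eq_self le, card_cj,
      card_VV hφ])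
  have c1 : c ∈ H0 := mem_cent1.2 (hc z0 (.inl rfl)).symm
  have c2 : Commute (φ ⟨c, c1⟩) (φ (iV u0_V)) := Commute.map (Subtype.ext (hc u0 (.inr rfl)).symm) φ
  have c3 : Commute (φ ⟨c, c1⟩) z := mem_cent1.1 (hC ▸ ⟨_, rfl⟩)
  refine ⟨φ ⟨c, c1⟩ * n, mem_norm_of_cj_le ?_, ?_, ?_⟩
  · rw [cj_mul]
    rintro _ ⟨a, ha, rfl⟩
    obtain ⟨b, rfl⟩ := le ha
    exact ⟨⟨c, c1⟩ * b * ⟨c, c1⟩⁻¹, e.le ⟨_, ⟨b, ha, rfl⟩, rfl⟩, by simp⟩
  · rw [← cj_eq_iff_comm.2 c2, ← h1]; group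
  · rw [← cj_eq_iff_comm.2 c3, ← h2]; group

/-- The automorphism of `V₀` induced by `n`. -/
theorem ex_aut (hn : n ∈ N[VV φ]) : ∃ a : V0 ≃* V0, ∀ v : V0, φ (iV (a v).2) = n * φ (iV v.2) * n⁻¹ := by
  let e : V0 ≃* VV φ := (subgroupOfEquivOfLe V0_le_H0).symm.trans (equivMapOfInjective _ φ hφ)
  refine ⟨(e.trans ((VV φ).normalizerMonoidHom ⟨n, hn⟩)).trans e.symm, fun v => ?_⟩
  exact congrArg Subtype.val (e.apply_symm_apply _)

theorem aut_ok {a : V0 ≃* V0} (hn : n ∈ N[VV φ]) (h1 : n * z * n⁻¹ = φ (iV u0_V)) (h2 : n * φ (iV u0_V) * n⁻¹ = z)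
    (ha : ∀ v : V0, φ (iV (a v).2) = n * φ (iV v.2) * n⁻¹) : ∀ y ∈ N0, Commute y z0 → Commute y u0 →
    ∃ y' ∈ N0, Commute y' z0 ∧ Commute y' u0 ∧ ∀ v w : V0, (w : CC) = y * v * y⁻¹ → (a w : CC) = y' * (a v) * y'⁻¹ := by
  intro y hy c1 c2
  have y1 : y ∈ H0 := mem_cent1.2 c1
  have d2 : Commute (φ ⟨y, y1⟩) (φ (iV u0_V)) := Commute.map (Subtype.ext c2.eq) φ
  have d1 : Commute (φ ⟨y, y1⟩) z := mem_cent1.1 (hC ▸ ⟨_, rfl⟩)
  obtain ⟨y', e⟩ := ex_pre hφ hC hz (h2 ▸ d2.conj n)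
  refine ⟨y', N0_of hφ ?_, mem_cent1.1 y'.2, ?_, fun v w f => ?_⟩
  · rw [e]; exact mul_mem (mul_mem hn ((Ind.of ⟨y, y1⟩).norm hy)) (inv_mem hn)
  · have : Commute (φ y') (φ (iV u0_V)) := by rw [e, ← h1]; exact d1.conj n
    exact congrArg Subtype.val (hφ (by simpa only [map_mul] using this.eq) : y' * iV u0_V = iV u0_V * y')
  · refine congrArg Subtype.val (hφ ?_ : iV (a w).2 = y' * iV (a v).2 * y'⁻¹)
    rw [map_mul, map_mul, map_inv, ha, ha, e, ← Ind.of ⟨y, y1⟩ (iV v.2) (iV w.2) v.2 f]; group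

theorem ind_all (h : ∃ n, n * z * n⁻¹ = φ (iV u0_V) ∧ n * φ (iV u0_V) * n⁻¹ = z) (hk : k ∈ N0) : ∃ n, Ind φ k n := by
  obtain ⟨m, hm, h1, h2⟩ := ex_swap hφ hC hz h
  obtain ⟨a, ha⟩ := ex_aut hφ hC hz hm
  obtain ⟨c, hc, e⟩ := bcore a (aut_ok hφ hC hz hm h1 h2 ha) (aut_ok hφ hC hz (inv_mem hm)
    (by rw [← h2]; group) (by rw [← h1]; group) fun v => by
      have := ha (a.symm v)
      simp only [MulEquiv.apply_symm_apply] at this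
      rw [this]; group)
  have I : Ind φ c m := fun v w hv f => by
    rw [← ha ⟨v, hv⟩]; exact congrArg φ (Subtype.ext ((e _).trans f.symm))
  have cz : c * z0 * c⁻¹ = u0 := (e ⟨z0, z0_V⟩).symm.trans (congrArg Subtype.val (hφ (by
    rw [ha, ← h1, ← hz]) : iV (a ⟨z0, z0_V⟩).2 = iV u0_V))
  rw [N0_gen] at hk
  refine (closure_induction (p := fun k _ => k ∈ N0 ∧ ∃ n, Ind φ k n) ?_ ⟨one_mem _, _, Ind.of 1⟩ ?_ ?_ hk).2
  · rintro x (hx | rfl)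
    · exact ⟨hx.1, _, Ind.of ⟨x, hx.2⟩⟩
    · have : c⁻¹ * g0 ∈ H0 := mem_cent1.2 (cj_eq_iff_comm.1 (by
        rw [show c⁻¹ * g0 * z0 * (c⁻¹ * g0)⁻¹ = c⁻¹ * (g0 * z0 * g0⁻¹) * c by group, g0_z0, ← cz]; group))
      exact ⟨g0_mem, _, by simpa using I.mul (Ind.of ⟨_, this⟩) (mul_mem (inv_mem hc) g0_mem)⟩
  · rintro x y - - ⟨hx, a, ha⟩ ⟨hy, b, hb⟩
    exact ⟨mul_mem hx hy, _, ha.mul hb hy⟩
  · rintro x - ⟨hx, a, ha⟩
    exact ⟨inv_mem hx, _, ha.inv hx⟩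

theorem card_cent {x : G} (h : IsConj z x) : #C1[x] = 2 ^ 9 * 174182400 := by
  obtain ⟨g, rfl⟩ := isConj_iff.1 h
  rw [C1_conj, card_cj, ← hC, ← Nat.card_congr (MonoidHom.ofInjective hφ).toEquiv, card_H0]

theorem not_conj_t (hN : ∀ k ∈ N0, ∃ n, Ind φ k n) : ¬ IsConj z (φ (iV t0_V)) := fun h => by
  obtain ⟨k, hk, o, c⟩ := ex11
  obtain ⟨n, hn⟩ := hN k hk
  have h1 : n ∈ C1[φ (iV t0_V)] := mem_cent1.2 (cj_eq_iff_comm.1 (hn _ _ t0_V (cj_eq_iff_comm.2 c).symm))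
  have h2 : n ^ (2 ^ 9 * 174182400) = 1 := by
    rw [← card_cent hφ hC hz h]; exact congrArg Subtype.val (pow_card_eq_one' (x := (⟨n, h1⟩ : C1[φ (iV t0_V)])))
  have h3 := hn.pow hk (2 ^ 9 * 174182400)
  rw [h2] at h3
  have h4 : k ^ (2 ^ 9 * 174182400) ∈ V0 := cent_V0 ▸ fun v hv => by
    have := hφ ((by simp : φ (iV hv) = 1 * φ (iV hv) * 1⁻¹).trans (h3 (iV hv) (iV (V0_conj (pow_mem hk _) hv)) hv rfl))
    exact (cj_eq_iff_comm.1 (congrArg Subtype.val this).symm).symm.eq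
  have := orderOf_dvd_of_pow_eq_one ((pow_add k _ _).trans (V0_sq h4))
  rw [o] at this; revert this; decide

theorem ind_norm (hN : ∀ k ∈ N0, ∃ n, Ind φ k n) (hn : n ∈ N[VV φ]) : ∃ k ∈ N0, Ind φ k n := by
  obtain ⟨w, hw, e⟩ := (mem_normalizer_iff.1 hn _).1 ((mem_VV hφ (h := iV z0_V)).2 z0_V)
  rw [hz] at e
  rcases V0_orb w hw with f | ⟨k, hk, f⟩ | ⟨k, hk, f⟩
  · rw [show w = 1 from Subtype.ext f, map_one, eq_comm, conj_eq_one_iff, ← hz, map_eq_one_iff _ hφ] at e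
    exact absurd (congrArg (fun x : H0 => orderOf x.1) e) (by simp [ord_z0])
  · obtain ⟨m, hm⟩ := hN k hk
    have := hm (iV z0_V) w z0_V f.symm
    rw [hz, e] at this
    obtain ⟨y, hy⟩ := ex_pre hφ hC hz (x := m⁻¹ * n) (cj_eq_iff_comm.1 (by
      rw [show m⁻¹ * n * z * (m⁻¹ * n)⁻¹ = m⁻¹ * (n * z * n⁻¹) * m by group, ← this]; group))
    have hy' := N0_of hφ (hy ▸ mul_mem (inv_mem (hm.norm hk)) hn)
    exact ⟨_, mul_mem hk hy', by simpa [hy] using hm.mul (Ind.of y) hy'⟩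
  · obtain ⟨m, hm⟩ := hN k hk
    have := hm (iV t0_V) w t0_V f.symm
    exact absurd ((isConj_iff.2 ⟨n, e.symm⟩).trans (isConj_iff.2 ⟨m, this⟩).symm) (not_conj_t hφ hC hz hN)

end Cfsg.Agent.Co1T
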